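import Mathlib
import Cfsg.Prelude.Def_Solvable

set_option autoImplicit false
open Cfsg
open scoped Pointwise

namespace Cfsg.Agent.Lib.Helper7.Frob

universe u v

/-- A fixed-point-free action gives a Frobenius complement in the semidirect product. -/
theorem frob_semidirect {V : Type u} {H : Type v} [Group V] [Group H] [Nontrivial V] [Nontrivial H]
    (φ : H →* MulAut V) (hφ : ∀ h : H, h ≠ 1 → ∀ v : V, φ h v = v → v = 1) :
    IsFrobeniusComplement (SemidirectProduct.inr : H →* V ⋊[φ] H).range := by
  refine ⟨?_, ?_, ?_⟩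
  · intro hbot
    obtain ⟨h, hh⟩ := exists_ne (1 : H)
    have h1 : (SemidirectProduct.inr h : V ⋊[φ] H) ∈
        (SemidirectProduct.inr : H →* V ⋊[φ] H).range := ⟨h, rfl⟩
    rw [hbot, Subgroup.mem_bot] at h1
    exact hh (SemidirectProduct.inr_injective (h1.trans (map_one _).symm))
  · intro htop
    obtain ⟨v, hv⟩ := exists_ne (1 : V)
    have h1 : (SemidirectProduct.inl v : V ⋊[φ] H) ∈
        (SemidirectProduct.inr : H →* V ⋊[φ] H).range := by rw [htop]; trivial
    obtain ⟨h, hh⟩ := h1
    have h2 := congrArg SemidirectProduct.left hh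
    simp at h2
    exact hv h2.symm
  · intro g hg
    rw [eq_bot_iff]
    rintro x ⟨⟨k, rfl⟩, hx2⟩
    rw [Subgroup.mem_bot]
    have hx3 : (SemidirectProduct.inr k : V ⋊[φ] H) ∈
        MulAut.conj g • (SemidirectProduct.inr : H →* V ⋊[φ] H).range := hx2
    rw [Subgroup.mem_pointwise_smul_iff_inv_smul_mem] at hx3
    obtain ⟨k', hk'⟩ := hx3
    have e : (MulAut.conj g)⁻¹ • (SemidirectProduct.inr k : V ⋊[φ] H) =
        g⁻¹ * SemidirectProduct.inr k * g := by simp [MulAut.smul_def]
    rw [e] at hk'
    have hl := congrArg SemidirectProduct.left hk'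
    simp at hl
    have hgl : g.left ≠ 1 := by
      intro h1
      apply hg
      refine ⟨g.right, ?_⟩
      apply SemidirectProduct.ext
      · simp [h1]
      · simp
    by_contra hk
    have hk1 : k ≠ 1 := by
      intro h1
      apply hk
      rw [h1, map_one]
    apply hgl
    apply hφ k hk1 g.left
    have h3 : (MulEquiv.symm (φ g.right)) g.left = (MulEquiv.symm (φ g.right)) ((φ k) g.left) := by
      rw [eq_inv_mul_iff_mul_eq, mul_one] at hl
      exact hl
    exact ((MulEquiv.symm (φ g.right)).injective h3).symm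

/-- Frobenius complements are preserved by isomorphisms. -/
theorem frob_map {L : Type u} {L' : Type v} [Group L] [Group L'] (e : L ≃* L') (K : Subgroup L)
    (hK : IsFrobeniusComplement K) : IsFrobeniusComplement (K.map e.toMonoidHom) := by
  obtain ⟨h1, h2, h3⟩ := hK
  refine ⟨?_, ?_, ?_⟩
  · intro hbot
    apply h1
    rw [eq_bot_iff]
    intro x hx
    have hx' : e x ∈ K.map e.toMonoidHom := ⟨x, hx, rfl⟩
    rw [hbot, Subgroup.mem_bot] at hx'
    rw [Subgroup.mem_bot]
    exact e.injective (hx'.trans (map_one e).symm)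
  · intro htop
    apply h2
    rw [eq_top_iff]
    intro x _
    have hx' : e x ∈ K.map e.toMonoidHom := by rw [htop]; trivial
    obtain ⟨y, hy, hyx⟩ := hx'
    have : y = x := e.injective hyx
    rw [← this]
    exact hy
  · intro g hg
    rw [eq_bot_iff]
    rintro x ⟨⟨y, hy, rfl⟩, hx2⟩
    have hx3 : e.toMonoidHom y ∈ MulAut.conj g • K.map e.toMonoidHom := hx2
    rw [Subgroup.mem_pointwise_smul_iff_inv_smul_mem] at hx3
    obtain ⟨z, hz, hzx⟩ := hx3
    have e1 : (MulAut.conj g)⁻¹ • (e.toMonoidHom y) = g⁻¹ * e y * g := by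
      simp [MulAut.smul_def]
    rw [e1] at hzx
    have hg' : e.symm g ∉ K := by
      intro hmem
      apply hg
      exact ⟨e.symm g, hmem, by simp⟩
    have h4 := h3 (e.symm g) hg'
    have hy2 : y ∈ MulAut.conj (e.symm g) • K := by
      rw [Subgroup.mem_pointwise_smul_iff_inv_smul_mem]
      have e2 : (MulAut.conj (e.symm g))⁻¹ • y = (e.symm g)⁻¹ * y * e.symm g := by
        simp [MulAut.smul_def]
      rw [e2]
      have e3 : (e.symm g)⁻¹ * y * e.symm g = z := by
        apply e.injective
        have hz' : e z = g⁻¹ * e y * g := hzx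
        rw [hz']
        simp
      rw [e3]
      exact hz
    have hy3 : y ∈ K ⊓ MulAut.conj (e.symm g) • K := ⟨hy, hy2⟩
    rw [h4, Subgroup.mem_bot] at hy3
    rw [Subgroup.mem_bot, hy3]
    exact map_one _

/-- A copy of `Fin n` carrying no algebraic instances. -/
def Carrier (n : ℕ) : Type := Fin n

/-- Every finite group is isomorphic to one living in `Type`. -/
theorem exists_type0 (L : Type u) [Group L] [Finite L] :
    ∃ (L' : Type) (_ : Group L') (_ : Finite L'), Nonempty (L ≃* L') := by
  let e : L ≃ Carrier (Nat.card L) := Finite.equivFin L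
  let _ : Group (Carrier (Nat.card L)) := e.symm.group
  have hfin : Finite (Carrier (Nat.card L)) := Finite.of_equiv L e
  exact ⟨Carrier (Nat.card L), e.symm.group, hfin, ⟨(e.symm.mulEquiv).symm⟩⟩

/-- A fixed-point-free action of a nontrivial finite group `H` on a nontrivial finite group `V`
makes `H` a Frobenius complement of a finite group living in `Type`. -/
theorem frob_of_fpf {V : Type u} {H : Type v} [Group V] [Group H] [Finite V] [Finite H]
    [Nontrivial V] [Nontrivial H]
    (φ : H →* MulAut V) (hφ : ∀ h : H, h ≠ 1 → ∀ v : V, φ h v = v → v = 1) :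
    ∃ (L : Type) (_ : Group L) (_ : Finite L) (K : Subgroup L),
      IsFrobeniusComplement K ∧ Nonempty (H ≃* K) := by
  have hfin : Finite (V ⋊[φ] H) := Finite.of_equiv (V × H) SemidirectProduct.equivProd.symm
  obtain ⟨L', instG, instF, ⟨e⟩⟩ := exists_type0 (V ⋊[φ] H)
  refine ⟨L', instG, instF, (SemidirectProduct.inr : H →* V ⋊[φ] H).range.map e.toMonoidHom,
    frob_map e _ (frob_semidirect φ hφ), ⟨?_⟩⟩
  exact (MonoidHom.ofInjective SemidirectProduct.inr_injective).trans
    (e.subgroupMap (SemidirectProduct.inr : H →* V ⋊[φ] H).range)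

/-- Additive version: a fixed-point-free distributive action on a finite additive group. -/
theorem frob_of_fpf_add {A : Type u} {H : Type v} [AddGroup A] [Group H] [DistribMulAction H A]
    [Finite A] [Finite H] [Nontrivial A] [Nontrivial H]
    (hfpf : ∀ h : H, h ≠ 1 → ∀ a : A, h • a = a → a = 0) :
    ∃ (L : Type) (_ : Group L) (_ : Finite L) (K : Subgroup L),
      IsFrobeniusComplement K ∧ Nonempty (H ≃* K) := by
  have hfin : Finite (Multiplicative A) := Finite.of_equiv A Multiplicative.ofAdd
  have hnt : Nontrivial (Multiplicative A) := Multiplicative.ofAdd.symm.nontrivial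
  apply frob_of_fpf (V := Multiplicative A)
    ((MulAutMultiplicative A).symm.toMonoidHom.comp (DistribMulAction.toAddAut H A))
  intro h hh v hv
  have h1 := hfpf h hh (Multiplicative.toAdd v) (congrArg Multiplicative.toAdd hv)
  exact congrArg Multiplicative.ofAdd h1

end Cfsg.Agent.Lib.Helper7.Frob
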