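import Mathlib
import Cfsg.Prelude.Def_CaseTheorems
import Cfsg.Agent.Lib.Helper8.QDFus
import Cfsg.Agent.Lib.Helper1.MaxCl2
import Cfsg.Agent.Lib.Helper1.Quat
import Cfsg.Agent.Lib.Helper1.Nil

set_option autoImplicit false

namespace Cfsg.Agent.Lib.Helper7.QD

open Cfsg Cfsg.Agent.Lib.Helper8 Cfsg.Agent.Lib.Helper1
open scoped commutatorElement

/-- Normal form data of a quasi-dihedral group of order `16 w`. -/
def Data {S : Type*} [Group S] (w k : ℕ) (x y : S) : Prop :=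
  IsPGroup 2 S ∧ 1 ≤ w ∧ k + 1 = 4 * w ∧ Nat.card S = 16 * w ∧ orderOf x = 8 * w ∧ y * y = 1 ∧
    y * x * y⁻¹ = x ^ k

theorem setup {S : Type*} [Group S] [Finite S] (hS : Cfsg.IsQuasiDihedral S) :
    ∃ (n w k : ℕ) (x y : S), 3 ≤ n ∧ w = 2 ^ (n - 3) ∧ Nat.card S = 2 ^ (n + 1) ∧
      Data w k x y := by
  haveI : Fact (Nat.Prime 2) := ⟨Nat.prime_two⟩
  obtain ⟨n, hn, hcard, x, y, hox, hoy, hxy⟩ := hS
  have e8 : 8 * 2 ^ (n - 3) = 2 ^ n := by
    have h1 : n = (n - 3) + 3 := by omega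
    conv_rhs => rw [h1, pow_add]
    ring
  have e4 : 2 ^ (n - 1) = 4 * 2 ^ (n - 3) := by
    have h1 : n - 1 = (n - 3) + 2 := by omega
    rw [h1, pow_add]; ring
  have h1 : 1 ≤ 2 ^ (n - 1) := Nat.one_le_two_pow
  refine ⟨n, 2 ^ (n - 3), 2 ^ (n - 1) - 1, x, y, hn, rfl, hcard, IsPGroup.of_card hcard,
    Nat.one_le_two_pow, ?_, ?_, ?_, ?_, hxy⟩
  · omega
  · rw [hcard, pow_succ, ← e8]; ring
  · rw [hox, e8]
  · have h2 := pow_orderOf_eq_one y
    rw [hoy, pow_two] at h2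
    exact h2

theorem isCoatom_of_index_two {G : Type*} [Group G] [Finite G] (M : Subgroup G)
    (h : M.index = 2) : IsCoatom M := by
  constructor
  · intro h1; rw [h1, Subgroup.index_top] at h; omega
  · intro K hK
    have h1 : K.index ∣ M.index := Subgroup.index_dvd_of_le hK.le
    rw [h] at h1
    rcases (Nat.dvd_prime Nat.prime_two).mp h1 with h2 | h2
    · exact Subgroup.index_eq_one.mp h2
    · exfalso
      have h3 : M = K := Subgroup.eq_of_le_of_card_ge hK.le (by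
        have e1 := Subgroup.card_mul_index M
        have e2 := Subgroup.card_mul_index K
        rw [h] at e1; rw [h2] at e2; omega)
      exact (ne_of_lt hK) h3

theorem eq_of_le_of_index_two {G : Type*} [Group G] [Finite G] (K M : Subgroup G) (hle : K ≤ M)
    (hK : K.index = 2) (hM : M.index = 2) : K = M :=
  Subgroup.eq_of_le_of_card_ge hle (by
    have e1 := Subgroup.card_mul_index M
    have e2 := Subgroup.card_mul_index K
    rw [hM] at e1; rw [hK] at e2; omega)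

section
variable {S : Type*} [Group S] {w k : ℕ} {x y : S}

theorem hx8 (h : Data w k x y) : x ^ (8 * w) = 1 := by
  obtain ⟨hG, hw, hk, hcard, hxo, hyy, hxy⟩ := h
  rw [← hxo]; exact pow_orderOf_eq_one x

theorem y_notMem (h : Data w k x y) : y ∉ Subgroup.zpowers x := by
  obtain ⟨hG, hw, hk, hcard, hxo, hyy, hxy⟩ := h
  exact QDFus.y_not_mem x y w k hxo hw hk hxy

theorem order_y (h : Data w k x y) : orderOf y = 2 := by
  haveI : Fact (Nat.Prime 2) := ⟨Nat.prime_two⟩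
  have h1 : y ≠ 1 := fun e => y_notMem h (by rw [e]; exact Subgroup.one_mem _)
  obtain ⟨hG, hw, hk, hcard, hxo, hyy, hxy⟩ := h
  exact orderOf_eq_prime (by rw [pow_two]; exact hyy) h1

theorem cases [Finite S] (h : Data w k x y) (s : S) :
    (∃ i : ℕ, s = x ^ i) ∨ (∃ i : ℕ, s = x ^ i * y) := by
  have hy := y_notMem h
  obtain ⟨hG, hw, hk, hcard, hxo, hyy, hxy⟩ := h
  have hc : Nat.card (⊤ : Subgroup S) = 16 * w := by rw [Subgroup.card_top]; exact hcard
  exact QDFus.mem_cases x y w ⊤ (Subgroup.mem_top x) (Subgroup.mem_top y) hc hxo hw hy s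
    (Subgroup.mem_top s)

theorem conj_sq_mem [Finite S] (h : Data w k x y) (g : S) :
    g * x ^ 2 * g⁻¹ ∈ Subgroup.zpowers (x ^ 2) := by
  rcases cases h g with ⟨i, rfl⟩ | ⟨i, rfl⟩
  · have h1 : x ^ i * x ^ 2 * (x ^ i)⁻¹ = x ^ 2 := by
      rw [← pow_add, add_comm, pow_add, mul_inv_cancel_right]
    rw [h1]; exact Subgroup.mem_zpowers _
  · obtain ⟨hG, hw, hk, hcard, hxo, hyy, hxy⟩ := h
    have h1 : x ^ i * y * x ^ 2 * (x ^ i * y)⁻¹ = x ^ i * (y * x ^ 2 * y⁻¹) * (x ^ i)⁻¹ := by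
      group
    rw [h1, QDFus.conj_y_pow x y k hxy 2]
    have h2 : x ^ i * x ^ (k * 2) * (x ^ i)⁻¹ = (x ^ 2) ^ k := by
      rw [← pow_add, add_comm, pow_add, mul_inv_cancel_right, ← pow_mul, mul_comm]
    rw [h2]; exact Subgroup.pow_mem _ (Subgroup.mem_zpowers _) k

theorem normal_A [Finite S] (h : Data w k x y) : (Subgroup.zpowers (x ^ 2)).Normal := by
  constructor
  intro a ha g
  obtain ⟨j, rfl⟩ := Subgroup.mem_zpowers_iff.mp ha
  rw [← conj_zpow]
  exact Subgroup.zpow_mem _ (conj_sq_mem h g) j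

theorem order_sq (h : Data w k x y) : orderOf (x ^ 2) = 4 * w := by
  obtain ⟨hG, hw, hk, hcard, hxo, hyy, hxy⟩ := h
  rw [orderOf_pow_of_dvd (by norm_num) (by rw [hxo]; exact ⟨4 * w, by ring⟩), hxo]
  omega

theorem A_le (h : Data w k x y) : Subgroup.zpowers (x ^ 2) ≤ Subgroup.zpowers x :=
  Subgroup.zpowers_le.mpr (Subgroup.pow_mem _ (Subgroup.mem_zpowers x) 2)

theorem x_notMem_A [Finite S] (h : Data w k x y) : x ∉ Subgroup.zpowers (x ^ 2) := by
  intro hx
  have h1 : Subgroup.zpowers x ≤ Subgroup.zpowers (x ^ 2) := Subgroup.zpowers_le.mpr hx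
  have h2 := Subgroup.card_le_of_le h1
  rw [Nat.card_zpowers, Nat.card_zpowers, order_sq h] at h2
  obtain ⟨hG, hw, hk, hcard, hxo, hyy, hxy⟩ := h
  rw [hxo] at h2
  omega

theorem index_A [Finite S] (h : Data w k x y) : (Subgroup.zpowers (x ^ 2)).index = 4 := by
  have h1 := Subgroup.card_mul_index (Subgroup.zpowers (x ^ 2))
  rw [Nat.card_zpowers, order_sq h] at h1
  obtain ⟨hG, hw, hk, hcard, hxo, hyy, hxy⟩ := h
  rw [hcard] at h1
  have h2 : 4 * w * (Subgroup.zpowers (x ^ 2)).index = 4 * w * 4 := by rw [h1]; ring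
  exact Nat.eq_of_mul_eq_mul_left (by omega) h2

theorem index_x [Finite S] (h : Data w k x y) : (Subgroup.zpowers x).index = 2 := by
  obtain ⟨hG, hw, hk, hcard, hxo, hyy, hxy⟩ := h
  have h1 := Subgroup.card_mul_index (Subgroup.zpowers x)
  rw [Nat.card_zpowers, hxo, hcard] at h1
  have h2 : 8 * w * (Subgroup.zpowers x).index = 8 * w * 2 := by rw [h1]; ring
  exact Nat.eq_of_mul_eq_mul_left (by omega) h2

theorem commutator_eq [Finite S] (h : Data w k x y) :
    commutator S = Subgroup.zpowers (x ^ 2) := by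
  haveI : Fact (Nat.Prime 2) := ⟨Nat.prime_two⟩
  haveI := normal_A h
  have hidx := index_A h
  have hx8' := hx8 h
  obtain ⟨hG, hw, hk, hcard, hxo, hyy, hxy⟩ := h
  apply le_antisymm
  · have hcardQ : Nat.card (S ⧸ Subgroup.zpowers (x ^ 2)) = 2 ^ 2 := by
      rw [← Subgroup.index_eq_card, hidx]; norm_num
    have hcomm := IsPGroup.commutative_of_card_eq_prime_sq (p := 2) hcardQ
    rw [commutator_eq_closure, Subgroup.closure_le]
    rintro _ ⟨a, b, rfl⟩
    rw [SetLike.mem_coe, ← QuotientGroup.eq_one_iff, commutatorElement_def]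
    simp only [QuotientGroup.mk_mul, QuotientGroup.mk_inv]
    rw [hcomm (a : S ⧸ Subgroup.zpowers (x ^ 2)) b]; group
  · rw [Subgroup.zpowers_le]
    have e : k * (2 * w + 1) + 2 = (2 * w + 1) + 8 * w * w := by
      have h1 : (k + 1) * (2 * w + 1) = 4 * w * (2 * w + 1) := by rw [hk]
      nlinarith [h1]
    have h2 : ⁅y, x ^ (2 * w + 1)⁆ * x ^ 2 = 1 := by
      rw [commutatorElement_def, QDFus.conj_y_pow x y k hxy (2 * w + 1)]
      have hc : Commute (x ^ (k * (2 * w + 1))) ((x ^ (2 * w + 1))⁻¹) :=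
        ((Commute.refl x).pow_pow _ _).inv_right
      rw [hc.eq, mul_assoc, ← pow_add, e]
      rw [pow_add x (2 * w + 1) (8 * w * w), pow_mul x (8 * w) w, hx8', one_pow, mul_one,
        inv_mul_cancel]
    have h4 : x ^ 2 = (⁅y, x ^ (2 * w + 1)⁆)⁻¹ := eq_inv_of_mul_eq_one_right h2
    rw [h4]
    apply Subgroup.inv_mem
    rw [commutator_def]
    exact Subgroup.commutator_mem_commutator (Subgroup.mem_top _) (Subgroup.mem_top _)

/-- membership in `A ⊔ ⟨t⟩` for `t` with `t² ∈ A`. -/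
theorem mem_sup_t [Finite S] (h : Data w k x y) (t : S)
    (ht2 : t * t ∈ Subgroup.zpowers (x ^ 2)) (g : S)
    (hg : g ∈ Subgroup.zpowers (x ^ 2) ⊔ Subgroup.zpowers t) :
    g ∈ Subgroup.zpowers (x ^ 2) ∨ g * t⁻¹ ∈ Subgroup.zpowers (x ^ 2) := by
  haveI := normal_A h
  have h1 : g ∈ ((Subgroup.zpowers (x ^ 2) ⊔ Subgroup.zpowers t : Subgroup S) : Set S) := hg
  rw [Subgroup.normal_mul, Set.mem_mul] at h1
  obtain ⟨a, ha, b, hb, rfl⟩ := h1
  obtain ⟨j, rfl⟩ := Subgroup.mem_zpowers_iff.mp hb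
  rcases Int.even_or_odd' j with ⟨m, rfl | rfl⟩
  · left
    rw [zpow_mul, zpow_two]
    exact Subgroup.mul_mem _ ha (Subgroup.zpow_mem _ ht2 m)
  · right
    have h2 : a * t ^ (2 * m + 1) * t⁻¹ = a * (t * t) ^ m := by
      rw [zpow_add, zpow_mul, zpow_two, zpow_one]; group
    rw [h2]
    exact Subgroup.mul_mem _ ha (Subgroup.zpow_mem _ ht2 m)

theorem card_sup_t [Finite S] (h : Data w k x y) (t : S)
    (ht : t ∉ Subgroup.zpowers (x ^ 2)) (ht2 : t * t ∈ Subgroup.zpowers (x ^ 2)) :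
    Nat.card (Subgroup.zpowers (x ^ 2) ⊔ Subgroup.zpowers t : Subgroup S) = 8 * w := by
  obtain ⟨K, hK⟩ : ∃ K : Subgroup S, K = Subgroup.zpowers (x ^ 2) ⊔ Subgroup.zpowers t := ⟨_, rfl⟩
  rw [← hK]
  have hAK : Subgroup.zpowers (x ^ 2) ≤ K := by rw [hK]; exact le_sup_left
  have htK : t ∈ K := by rw [hK]; exact Subgroup.mem_sup_right (Subgroup.mem_zpowers t)
  have hrel : (Subgroup.zpowers (x ^ 2)).relIndex K = 2 := by
    show ((Subgroup.zpowers (x ^ 2)).subgroupOf K).index = 2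
    rw [Subgroup.index_eq_two_iff]
    refine ⟨⟨t, htK⟩, fun b => ?_⟩
    rw [Subgroup.mem_subgroupOf, Subgroup.mem_subgroupOf]
    show Xor' ((b : S) * t ∈ Subgroup.zpowers (x ^ 2)) ((b : S) ∈ Subgroup.zpowers (x ^ 2))
    by_cases hb : (b : S) ∈ Subgroup.zpowers (x ^ 2)
    · right
      refine ⟨hb, fun hbt => ht ?_⟩
      have h1 := Subgroup.mul_mem _ (Subgroup.inv_mem _ hb) hbt
      rwa [inv_mul_cancel_left] at h1
    · left
      refine ⟨?_, hb⟩
      have hbK : (b : S) ∈ Subgroup.zpowers (x ^ 2) ⊔ Subgroup.zpowers t := by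
        rw [← hK]; exact b.2
      rcases mem_sup_t h t ht2 b hbK with h1 | h1
      · exact absurd h1 hb
      · have h2 : (b : S) * t = (b : S) * t⁻¹ * (t * t) := by group
        rw [h2]
        exact Subgroup.mul_mem _ h1 ht2
  have h1 := Subgroup.relIndex_mul_relIndex ⊥ (Subgroup.zpowers (x ^ 2)) K bot_le hAK
  rw [Subgroup.relIndex_bot_left, Subgroup.relIndex_bot_left, hrel, Nat.card_zpowers,
    order_sq h] at h1
  rw [← h1]; ring

theorem index_sup_t [Finite S] (h : Data w k x y) (t : S)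
    (ht : t ∉ Subgroup.zpowers (x ^ 2)) (ht2 : t * t ∈ Subgroup.zpowers (x ^ 2)) :
    (Subgroup.zpowers (x ^ 2) ⊔ Subgroup.zpowers t : Subgroup S).index = 2 := by
  have h1 := Subgroup.card_mul_index (Subgroup.zpowers (x ^ 2) ⊔ Subgroup.zpowers t : Subgroup S)
  rw [card_sup_t h t ht ht2] at h1
  obtain ⟨hG, hw, hk, hcard, hxo, hyy, hxy⟩ := h
  rw [hcard] at h1
  have h2 : 8 * w * (Subgroup.zpowers (x ^ 2) ⊔ Subgroup.zpowers t : Subgroup S).index =
      8 * w * 2 := by rw [h1]; ring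
  exact Nat.eq_of_mul_eq_mul_left (by omega) h2

theorem y_notMem_A (h : Data w k x y) : y ∉ Subgroup.zpowers (x ^ 2) :=
  fun hy => y_notMem h (A_le h hy)

theorem y_sq_mem_A (h : Data w k x y) : y * y ∈ Subgroup.zpowers (x ^ 2) := by
  obtain ⟨hG, hw, hk, hcard, hxo, hyy, hxy⟩ := h
  rw [hyy]; exact Subgroup.one_mem _

theorem xy_notMem_A (h : Data w k x y) : x * y ∉ Subgroup.zpowers (x ^ 2) := by
  intro hxy'
  have h1 := A_le h hxy'
  have h2 := Subgroup.mul_mem _ (Subgroup.inv_mem _ (Subgroup.mem_zpowers x)) h1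
  rw [inv_mul_cancel_left] at h2
  exact y_notMem h h2

theorem xy_sq (h : Data w k x y) : (x * y) * (x * y) = x ^ (4 * w) := by
  obtain ⟨hG, hw, hk, hcard, hxo, hyy, hxy⟩ := h
  have h1 := QDFus.sq_outside x y w k hyy hk hxy 1
  rwa [pow_one, mul_one] at h1

theorem xy_sq_mem_A (h : Data w k x y) : (x * y) * (x * y) ∈ Subgroup.zpowers (x ^ 2) := by
  rw [xy_sq h, show 4 * w = 2 * (2 * w) by ring, pow_mul]
  exact Subgroup.pow_mem _ (Subgroup.mem_zpowers _) _

theorem frattini_eq [Finite S] (h : Data w k x y) : frattini S = Subgroup.zpowers (x ^ 2) := by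
  haveI : Fact (Nat.Prime 2) := ⟨Nat.prime_two⟩
  apply le_antisymm
  · have h1 : frattini S ≤ Subgroup.zpowers x :=
      frattini_le_coatom (isCoatom_of_index_two _ (index_x h))
    have h3 : frattini S ≤ Subgroup.zpowers (x ^ 2) ⊔ Subgroup.zpowers y :=
      frattini_le_coatom (isCoatom_of_index_two _
        (index_sup_t h y (y_notMem_A h) (y_sq_mem_A h)))
    intro g hg
    rcases mem_sup_t h y (y_sq_mem_A h) g (h3 hg) with h4 | h4
    · exact h4
    · exfalso
      have h5 : g * y⁻¹ ∈ Subgroup.zpowers x := A_le h h4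
      have h6 := Subgroup.mul_mem _ (Subgroup.inv_mem _ (h1 hg)) h5
      rw [inv_mul_cancel_left] at h6
      exact y_notMem h ((Subgroup.inv_mem_iff _).mp h6)
  · unfold frattini Order.radical
    apply le_iInf₂
    intro M hM
    obtain ⟨hMn, hMi⟩ := coatom_normal_index_of_isPGroup 2 h.1 M hM
    rw [Subgroup.zpowers_le, pow_two, Subgroup.mul_mem_iff_of_index_two hMi]

theorem card_center {S : Type*} [Group S] [Finite S] {w k : ℕ} {x y : S} (h : Data w k x y)
    (n : ℕ) (hn : 3 ≤ n) (hcard : Nat.card S = 2 ^ (n + 1)) :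
    Nat.card (Subgroup.center S) = 2 := by
  have hidx : (commutator S).index = 4 := by rw [commutator_eq h]; exact index_A h
  have hcl := MaxCl.maxclass_of_index (n + 1) S (by omega) hcard hidx
  exact (MaxCl.card_center (n + 1) (by omega) hcard hcl).1

theorem inv_closure_eq [Finite S] (h : Data w k x y) :
    Subgroup.closure {s : S | orderOf s = 2} =
      Subgroup.zpowers (x ^ 2) ⊔ Subgroup.zpowers y := by
  haveI : Fact (Nat.Prime 2) := ⟨Nat.prime_two⟩
  have hx8' := hx8 h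
  have hyn := y_notMem h
  have hoy := order_y h
  have hcs := cases h
  obtain ⟨hG, hw, hk, hcard, hxo, hyy, hxy⟩ := h
  apply le_antisymm
  · rw [Subgroup.closure_le]
    intro s hs
    have hs2 : orderOf s = 2 := hs
    have hz1 : x ^ (4 * w) ≠ 1 := by
      intro h0
      have h1 := orderOf_dvd_of_pow_eq_one h0
      rw [hxo] at h1
      have h2 := Nat.le_of_dvd (by omega) h1
      omega
    have hzo : orderOf (x ^ (4 * w)) = 2 := by
      refine orderOf_eq_prime ?_ hz1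
      rw [← pow_mul, show 4 * w * 2 = 8 * w by ring, hx8']
    rcases QDFus.inv_cases x y w k hx8' hyy hk hxy hz1 hzo s (hcs s) hs2 with h1 | ⟨e, h1⟩
    · rw [h1, SetLike.mem_coe]
      apply Subgroup.mem_sup_left
      rw [show 4 * w = 2 * (2 * w) by ring, pow_mul]
      exact Subgroup.pow_mem _ (Subgroup.mem_zpowers _) _
    · rw [h1, SetLike.mem_coe, pow_mul]
      exact Subgroup.mul_mem _
        (Subgroup.mem_sup_left (Subgroup.pow_mem _ (Subgroup.mem_zpowers _) _))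
        (Subgroup.mem_sup_right (Subgroup.mem_zpowers y))
  · apply sup_le
    · rw [Subgroup.zpowers_le]
      have h1 : orderOf (x ^ 2 * y) = 2 := by
        refine orderOf_eq_prime ?_ ?_
        · rw [pow_two, QDFus.sq_outside x y w k hyy hk hxy 2, show 4 * w * 2 = 8 * w by ring,
            hx8']
        · intro h0
          apply hyn
          have h2 : y = (x ^ 2)⁻¹ := eq_inv_of_mul_eq_one_right h0
          rw [h2]; exact Subgroup.inv_mem _ (Subgroup.pow_mem _ (Subgroup.mem_zpowers x) 2)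
      have h2 : x ^ 2 = (x ^ 2 * y) * y⁻¹ := by group
      rw [h2]
      exact Subgroup.mul_mem _ (Subgroup.subset_closure h1)
        (Subgroup.inv_mem _ (Subgroup.subset_closure hoy))
    · rw [Subgroup.zpowers_le]
      exact Subgroup.subset_closure hoy

theorem M3_dihedral [Finite S] (h : Data w k x y) (T : Subgroup S)
    (hT : T = Subgroup.zpowers (x ^ 2) ⊔ Subgroup.zpowers y) :
    Nonempty (↥T ≃* DihedralGroup (4 * w)) := by
  haveI := normal_A h
  have hx8' := hx8 h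
  have hcardT := card_sup_t h y (y_notMem_A h) (y_sq_mem_A h)
  have hmem := mem_sup_t h y (y_sq_mem_A h)
  obtain ⟨hG, hw, hk, hcard, hxo, hyy, hxy⟩ := h
  haveI : NeZero (4 * w) := ⟨by omega⟩
  have hxT : x ^ 2 ∈ T := by rw [hT]; exact Subgroup.mem_sup_left (Subgroup.mem_zpowers _)
  have hyT : y ∈ T := by rw [hT]; exact Subgroup.mem_sup_right (Subgroup.mem_zpowers _)
  refine MaxCl.dih_recognize (4 * w) (⟨x ^ 2, hxT⟩ : ↥T) ⟨y, hyT⟩ ?_ ?_ ?_ ?_ ?_
  · apply Subtype.ext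
    show (x ^ 2) ^ (4 * w) = 1
    rw [← pow_mul, show 2 * (4 * w) = 8 * w by ring, hx8']
  · exact Subtype.ext hyy
  · apply Subtype.ext
    show y * x ^ 2 * y⁻¹ = (x ^ 2)⁻¹
    rw [QDFus.conj_y_pow x y k hxy 2]
    apply eq_inv_of_mul_eq_one_left
    rw [← pow_add, show k * 2 + 2 = 8 * w by omega, hx8']
  · rw [hT, hcardT]; ring
  · intro g
    have hg : (g : S) ∈ Subgroup.zpowers (x ^ 2) ⊔ Subgroup.zpowers y := by
      rw [← hT]; exact g.2
    rcases hmem g hg with h1 | h1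
    · left
      obtain ⟨j, hj⟩ := Subgroup.mem_zpowers_iff.mp h1
      rw [Subgroup.mem_zpowers_iff]
      exact ⟨j, Subtype.ext (by simpa using hj)⟩
    · right
      have h2 : y⁻¹ * (g : S) ∈ Subgroup.zpowers (x ^ 2) := by
        have h3 := (inferInstance : (Subgroup.zpowers (x ^ 2)).Normal).conj_mem _ h1 y⁻¹
        have h4 : y⁻¹ * ((g : S) * y⁻¹) * y⁻¹⁻¹ = y⁻¹ * (g : S) := by group
        rwa [h4] at h3
      obtain ⟨j, hj⟩ := Subgroup.mem_zpowers_iff.mp h2
      rw [Subgroup.mem_zpowers_iff]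
      exact ⟨j, Subtype.ext (by simpa using hj)⟩

theorem M2_quat [Finite S] (h : Data w k x y) (T : Subgroup S)
    (hT : T = Subgroup.zpowers (x ^ 2) ⊔ Subgroup.zpowers (x * y)) :
    Nonempty (↥T ≃* QuaternionGroup (2 * w)) := by
  have hx8' := hx8 h
  have hcardT := card_sup_t h (x * y) (xy_notMem_A h) (xy_sq_mem_A h)
  have hsq := xy_sq h
  have hnot := xy_notMem_A h
  have hos := order_sq h
  obtain ⟨hG, hw, hk, hcard, hxo, hyy, hxy⟩ := h
  haveI : NeZero (2 * w) := ⟨by omega⟩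
  have hxT : x ^ 2 ∈ T := by rw [hT]; exact Subgroup.mem_sup_left (Subgroup.mem_zpowers _)
  have htT : x * y ∈ T := by rw [hT]; exact Subgroup.mem_sup_right (Subgroup.mem_zpowers _)
  refine Quat.quat_recognize (2 * w) (⟨x ^ 2, hxT⟩ : ↥T) ⟨x * y, htT⟩ ?_ ?_ ?_ ?_ ?_
  · rw [hT, hcardT]; ring
  · rw [Subgroup.orderOf_mk, hos]; ring
  · apply Subtype.ext
    show x * y * (x * y) = (x ^ 2) ^ (2 * w)
    rw [hsq, ← pow_mul]; congr 1; ring
  · apply Subtype.ext
    show x * y * x ^ 2 * (x * y)⁻¹ = (x ^ 2)⁻¹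
    have h1 : x * y * x ^ 2 * (x * y)⁻¹ = x * (y * x ^ 2 * y⁻¹) * x⁻¹ := by group
    rw [h1, QDFus.conj_y_pow x y k hxy 2]
    have h2 : x * x ^ (k * 2) * x⁻¹ = x ^ (k * 2) := by
      rw [← pow_succ', pow_succ, mul_inv_cancel_right]
    rw [h2]
    apply eq_inv_of_mul_eq_one_left
    rw [← pow_add, show k * 2 + 2 = 8 * w by omega, hx8']
  · intro hmem
    obtain ⟨j, hj⟩ := Subgroup.mem_zpowers_iff.mp hmem
    have hj' : (x ^ 2) ^ j = x * y := by
      have h3 := congrArg Subtype.val hj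
      simpa using h3
    exact hnot (hj' ▸ Subgroup.zpow_mem _ (Subgroup.mem_zpowers _) j)

end

end Cfsg.Agent.Lib.Helper7.QD
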