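import Mathlib
import Cfsg.Prelude.Def_PLocal
import Cfsg.Agent.S0586

set_option autoImplicit false
open Cfsg

namespace Cfsg.Agent.Lib.Helper7.Regular

universe u
open Subgroup
open scoped commutatorElement

section basic
variable {G : Type u} [Group G]

lemma mem_cl_left (a b : G) : a ∈ closure ({a, b} : Set G) := Subgroup.subset_closure (by simp)
lemma mem_cl_right (a b : G) : b ∈ closure ({a, b} : Set G) := Subgroup.subset_closure (by simp)

lemma comm_le_self (H : Subgroup G) : ⁅H, H⁆ ≤ H := by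
  rw [Subgroup.commutator_le]
  intro g₁ h₁ g₂ h₂
  rw [commutatorElement_def]
  exact H.mul_mem (H.mul_mem (H.mul_mem h₁ h₂) (H.inv_mem h₁)) (H.inv_mem h₂)

lemma closure_pair_eq {a b u v : G} (hu : u ∈ closure ({a, b} : Set G))
    (hv : v ∈ closure ({a, b} : Set G)) (ha : a ∈ closure ({u, v} : Set G))
    (hb : b ∈ closure ({u, v} : Set G)) : closure ({u, v} : Set G) = closure ({a, b} : Set G) := by
  apply le_antisymm
  · rw [closure_le]; rintro x (rfl | rfl)
    · exact hu
    · exact hv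
  · rw [closure_le]; rintro x (rfl | rfl)
    · exact ha
    · exact hb

/-- In a two-generator group, the derived subgroup lies in any subgroup normalized by the group and
containing the commutator of the generators. -/
lemma comm_le_of_normalized (a b : G) (N : Subgroup G)
    (hN : ∀ g ∈ closure ({a, b} : Set G), ∀ n ∈ N, g * n * g⁻¹ ∈ N)
    (hab : ⁅a, b⁆ ∈ N) : ⁅closure ({a, b} : Set G), closure ({a, b} : Set G)⁆ ≤ N := by
  have step1 : ∀ s ∈ ({a, b} : Set G), ∀ h ∈ closure ({a, b} : Set G), ⁅s, h⁆ ∈ N := by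
    intro s hs h hh
    refine Subgroup.closure_induction (p := fun h _ => ⁅s, h⁆ ∈ N) ?_ ?_ ?_ ?_ hh
    · intro x hx
      rcases hs with rfl | rfl
      · rcases hx with rfl | rfl
        · rw [commutatorElement_self]; exact one_mem _
        · exact hab
      · rcases hx with rfl | rfl
        · rw [← commutatorElement_inv]; exact inv_mem hab
        · rw [commutatorElement_self]; exact one_mem _
    · rw [commutatorElement_one_right]; exact one_mem _
    · intro x y hx hy ihx ihy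
      have e : ⁅s, x * y⁆ = ⁅s, x⁆ * (x * ⁅s, y⁆ * x⁻¹) := by
        simp only [commutatorElement_def]; group
      rw [e]
      exact mul_mem ihx (hN x hx _ ihy)
    · intro x hx ihx
      have e : ⁅s, x⁻¹⁆ = x⁻¹ * (⁅s, x⁆)⁻¹ * x⁻¹⁻¹ := by
        simp only [commutatorElement_def]; group
      rw [e]
      exact hN x⁻¹ (inv_mem hx) _ (inv_mem ihx)
  rw [Subgroup.commutator_le]
  intro g hg h hh
  refine Subgroup.closure_induction (p := fun g _ => ⁅g, h⁆ ∈ N) ?_ ?_ ?_ ?_ hg
  · intro x hx; exact step1 x hx h hh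
  · rw [commutatorElement_one_left]; exact one_mem _
  · intro x y hx hy ihx ihy
    have e : ⁅x * y, h⁆ = (x * ⁅y, h⁆ * x⁻¹) * ⁅x, h⁆ := by
      simp only [commutatorElement_def]; group
    rw [e]
    exact mul_mem (hN x hx _ ihy) ihx
  · intro x hx ihx
    have e : ⁅x⁻¹, h⁆ = x⁻¹ * (⁅x, h⁆)⁻¹ * x⁻¹⁻¹ := by
      simp only [commutatorElement_def]; group
    rw [e]
    exact hN x⁻¹ (inv_mem hx) _ (inv_mem ihx)

/-- In a finite `p`-group, if `u, v` do not commute then `⟨v⟩⟨u,v⟩'` is a proper subgroup of `⟨u,v⟩`. -/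
lemma card_lt_of_not_comm [Finite G] {p : ℕ} [Fact p.Prime] (hG : IsPGroup p G) (u v : G)
    (huv : u * v ≠ v * u) :
    Nat.card (zpowers v ⊔ ⁅closure ({u, v} : Set G), closure ({u, v} : Set G)⁆ : Subgroup G)
      < Nat.card (closure ({u, v} : Set G)) := by
  obtain ⟨H, hH⟩ : ∃ H : Subgroup G, H = closure ({u, v} : Set G) := ⟨_, rfl⟩
  rw [← hH]
  have hu : u ∈ H := hH ▸ mem_cl_left u v
  have hv : v ∈ H := hH ▸ mem_cl_right u v
  have hle : zpowers v ⊔ ⁅H, H⁆ ≤ H := sup_le (zpowers_le.mpr hv) (comm_le_self H)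
  by_contra hcon
  have hKH : zpowers v ⊔ ⁅H, H⁆ = H := Subgroup.eq_of_le_of_card_ge hle (not_lt.mp hcon)
  haveI : Group.IsNilpotent ↥H := (hG.to_subgroup H).isNilpotent
  have hfr := Cfsg.Agent.S0586.commutator_le_frattini_of_nilpotent (F := ↥H)
  have htop : zpowers (⟨v, hv⟩ : ↥H) ⊔ commutator ↥H = ⊤ := by
    apply Subgroup.map_injective H.subtype_injective
    rw [Subgroup.map_sup, MonoidHom.map_zpowers, Subgroup.map_subtype_commutator,
      ← MonoidHom.range_eq_map, Subgroup.range_subtype]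
    exact hKH
  have htop2 : zpowers (⟨v, hv⟩ : ↥H) ⊔ frattini ↥H = ⊤ := by
    rw [eq_top_iff, ← htop]
    exact sup_le_sup_left hfr _
  have hz : zpowers (⟨v, hv⟩ : ↥H) = ⊤ := frattini_nongenerating htop2
  have hmem : (⟨u, hu⟩ : ↥H) ∈ zpowers (⟨v, hv⟩ : ↥H) := hz ▸ mem_top _
  obtain ⟨i, hi⟩ := mem_zpowers_iff.mp hmem
  have hi' : v ^ i = u := by
    have := congrArg Subtype.val hi
    simpa using this
  apply huv
  rw [← hi']
  exact ((Commute.refl v).zpow_left i).eq

lemma powerClosure_mono {p : ℕ} (n : ℕ) {H K : Subgroup G} (h : H ≤ K) :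
    powerClosure p n H ≤ powerClosure p n K := by
  unfold powerClosure
  apply Subgroup.closure_mono
  rintro y ⟨x, hx, rfl⟩
  exact ⟨x, h hx, rfl⟩

lemma powerClosure_conj {p : ℕ} (n : ℕ) (H : Subgroup G) (g : G) (hg : ∀ x ∈ H, g * x * g⁻¹ ∈ H) :
    ∀ y ∈ powerClosure p n H, g * y * g⁻¹ ∈ powerClosure p n H := by
  intro y hy
  unfold powerClosure at hy ⊢
  refine Subgroup.closure_induction
    (p := fun y _ => g * y * g⁻¹ ∈ closure {y : G | ∃ x ∈ H, y = x ^ (p ^ n)}) ?_ ?_ ?_ ?_ hy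
  · rintro y ⟨x, hx, rfl⟩
    exact Subgroup.subset_closure ⟨g * x * g⁻¹, hg x hx, (conj_pow).symm⟩
  · simp
  · intro x y hx hy ihx ihy
    have : g * (x * y) * g⁻¹ = (g * x * g⁻¹) * (g * y * g⁻¹) := by group
    rw [this]; exact mul_mem ihx ihy
  · intro x hx ihx
    have : g * x⁻¹ * g⁻¹ = (g * x * g⁻¹)⁻¹ := by group
    rw [this]; exact inv_mem ihx

end basic

section reg
variable {G : Type u} [Group G] [Finite G] {p : ℕ} [Fact p.Prime]

lemma reg_mul_pow_of_exp (hG : IsRegularPGroup p G) (k : ℕ) (a b : G)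
    (hexp : ∀ x ∈ ⁅closure ({a, b} : Set G), closure ({a, b} : Set G)⁆, x ^ p ^ k = 1) :
    (a * b) ^ p ^ k = a ^ p ^ k * b ^ p ^ k := by
  obtain ⟨c, hc, h⟩ := hG.2 a b k
  have hbot : powerClosure p k ⁅closure ({a, b} : Set G), closure ({a, b} : Set G)⁆ = ⊥ := by
    unfold powerClosure
    rw [Subgroup.closure_eq_bot_iff]
    rintro y ⟨x, hx, rfl⟩
    exact hexp x hx
  rw [hbot, mem_bot] at hc
  rw [h, hc, mul_one]

theorem pow_eq_iff_aux (hG : IsRegularPGroup p G) (k : ℕ) : ∀ m : ℕ, ∀ a b : G,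
    Nat.card (closure ({a, b} : Set G)) ≤ m →
    (a ^ p ^ k = b ^ p ^ k ↔ (a * b⁻¹) ^ p ^ k = 1) := by
  intro m
  induction m using Nat.strong_induction_on with
  | _ m ih =>
    intro a b hcard
    by_cases hcomm : a * b = b * a
    · have hc : Commute a b⁻¹ := (Commute.inv_right (show Commute a b from hcomm))
      rw [hc.mul_pow, inv_pow, mul_inv_eq_one]
    · obtain ⟨H, hH⟩ : ∃ H : Subgroup G, H = closure ({a, b} : Set G) := ⟨_, rfl⟩
      rw [← hH] at hcard
      have haH : a ∈ H := hH ▸ mem_cl_left a b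
      have hbH : b ∈ H := hH ▸ mem_cl_right a b
      have key : ∀ u v : G, closure ({u, v} : Set G) = H → u * v ≠ v * u →
          (u * v * u⁻¹) ^ p ^ k = v ^ p ^ k → ∀ x ∈ ⁅H, H⁆, x ^ p ^ k = 1 := by
        intro u v hcl huv hpow
        have huH : u ∈ H := hcl ▸ mem_cl_left u v
        have hvH : v ∈ H := hcl ▸ mem_cl_right u v
        have hlt := card_lt_of_not_comm hG.1 u v huv
        rw [hcl] at hlt
        have hDlt : Nat.card (⁅H, H⁆ : Subgroup G) < m :=
          lt_of_le_of_lt (Subgroup.card_le_of_le le_sup_right) (lt_of_lt_of_le hlt hcard)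
        have h1 : ⁅u, v⁆ ^ p ^ k = 1 := by
          have hcl2 : closure ({u * v * u⁻¹, v} : Set G) ≤ zpowers v ⊔ ⁅H, H⁆ := by
            rw [closure_le]
            rintro x (rfl | rfl)
            · have e : u * v * u⁻¹ = ⁅u, v⁆ * v := by simp only [commutatorElement_def]; group
              rw [SetLike.mem_coe, e]
              exact mul_mem (mem_sup_right (commutator_mem_commutator huH hvH))
                (mem_sup_left (mem_zpowers v))
            · exact mem_sup_left (mem_zpowers _)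
          have hc2 : Nat.card (closure ({u * v * u⁻¹, v} : Set G)) < m :=
            lt_of_le_of_lt (Subgroup.card_le_of_le hcl2) (lt_of_lt_of_le hlt hcard)
          exact (ih _ hc2 (u * v * u⁻¹) v le_rfl).mp hpow
        obtain ⟨N, hNdef⟩ : ∃ N : Subgroup G,
            N = closure {x | x ∈ ⁅H, H⁆ ∧ x ^ p ^ k = 1} := ⟨_, rfl⟩
        have hNle : N ≤ ⁅H, H⁆ := by
          rw [hNdef, closure_le]; exact fun x hx => hx.1
        have hNexp : ∀ x ∈ N, x ^ p ^ k = 1 := by
          intro x hx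
          rw [hNdef] at hx
          refine Subgroup.closure_induction
            (p := fun x _ => x ∈ N ∧ x ^ p ^ k = 1) ?_ ?_ ?_ ?_ hx |>.2
          · intro x hx; exact ⟨hNdef ▸ Subgroup.subset_closure hx, hx.2⟩
          · exact ⟨one_mem _, one_pow _⟩
          · rintro x y _ _ ⟨hxN, ihx⟩ ⟨hyN, ihy⟩
            refine ⟨mul_mem hxN hyN, ?_⟩
            have hxy : Nat.card (closure ({x, y⁻¹} : Set G)) < m := by
              apply lt_of_le_of_lt (Subgroup.card_le_of_le _) hDlt
              rw [closure_le]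
              rintro z (rfl | rfl)
              · exact hNle hxN
              · exact inv_mem (hNle hyN)
            have := (ih _ hxy x y⁻¹ le_rfl).mp (by rw [ihx, inv_pow, ihy, inv_one])
            rwa [inv_inv] at this
          · rintro x _ ⟨hxN, ihx⟩
            exact ⟨inv_mem hxN, by rw [inv_pow, ihx, inv_one]⟩
        have hNnorm : ∀ g ∈ closure ({u, v} : Set G), ∀ n ∈ N, g * n * g⁻¹ ∈ N := by
          intro g hg n hn
          rw [hcl] at hg
          rw [hNdef] at hn ⊢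
          refine Subgroup.closure_induction
            (p := fun n _ => g * n * g⁻¹ ∈ closure {x | x ∈ ⁅H, H⁆ ∧ x ^ p ^ k = 1}) ?_ ?_ ?_ ?_ hn
          · intro x hx
            apply Subgroup.subset_closure
            refine ⟨?_, ?_⟩
            · have e : g * x * g⁻¹ = ⁅g, x⁆ * x := by simp only [commutatorElement_def]; group
              rw [e]
              exact mul_mem (commutator_mem_commutator hg (comm_le_self H hx.1)) hx.1
            · rw [conj_pow, hx.2]; group
          · simp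
          · intro x y _ _ ihx ihy
            have e : g * (x * y) * g⁻¹ = (g * x * g⁻¹) * (g * y * g⁻¹) := by group
            rw [e]; exact mul_mem ihx ihy
          · intro x _ ihx
            have e : g * x⁻¹ * g⁻¹ = (g * x * g⁻¹)⁻¹ := by group
            rw [e]; exact inv_mem ihx
        have huvN : ⁅u, v⁆ ∈ N := by
          rw [hNdef]
          exact Subgroup.subset_closure ⟨commutator_mem_commutator huH hvH, h1⟩
        have hDN := comm_le_of_normalized u v N hNnorm huvN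
        rw [hcl] at hDN
        intro x hx
        exact hNexp x (hDN hx)
      have hclinv : closure ({a, b⁻¹} : Set G) = closure ({a, b} : Set G) :=
        closure_pair_eq (mem_cl_left a b) (inv_mem (mem_cl_right a b)) (mem_cl_left a b⁻¹)
          (by have := inv_mem (mem_cl_right a b⁻¹); rwa [inv_inv] at this)
      have fin : (∀ x ∈ ⁅H, H⁆, x ^ p ^ k = 1) →
          (a ^ p ^ k = b ^ p ^ k ↔ (a * b⁻¹) ^ p ^ k = 1) := by
        intro hexp
        have h1 := reg_mul_pow_of_exp hG k a b⁻¹ (by rw [hclinv, ← hH]; exact hexp)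
        rw [h1, inv_pow, mul_inv_eq_one]
      constructor
      · intro hab
        have hcl : closure ({b⁻¹, a} : Set G) = H := by
          rw [hH]
          exact closure_pair_eq (inv_mem (mem_cl_right a b)) (mem_cl_left a b) (mem_cl_right b⁻¹ a)
            (by have := inv_mem (mem_cl_left b⁻¹ a); rwa [inv_inv] at this)
        have hnc : b⁻¹ * a ≠ a * b⁻¹ := by
          intro h; apply hcomm
          calc a * b = b * (b⁻¹ * a) * b := by group
            _ = b * (a * b⁻¹) * b := by rw [h]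
            _ = b * a := by group
        have hexp := key b⁻¹ a hcl hnc (by rw [conj_pow, hab]; group)
        exact (fin hexp).mp hab
      · intro hab
        have hcl : closure ({b⁻¹, a * b⁻¹} : Set G) = H := by
          rw [hH]
          refine closure_pair_eq (inv_mem (mem_cl_right a b))
            (mul_mem (mem_cl_left a b) (inv_mem (mem_cl_right a b))) ?_ ?_
          · have h1 : a * b⁻¹ ∈ closure ({b⁻¹, a * b⁻¹} : Set G) := mem_cl_right _ _
            have h2 : b⁻¹ ∈ closure ({b⁻¹, a * b⁻¹} : Set G) := mem_cl_left _ _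
            have := mul_mem h1 (inv_mem h2)
            simpa using this
          · have := inv_mem (mem_cl_left b⁻¹ (a * b⁻¹)); rwa [inv_inv] at this
        have hnc : b⁻¹ * (a * b⁻¹) ≠ (a * b⁻¹) * b⁻¹ := by
          intro h; apply hcomm
          calc a * b = b * (b⁻¹ * (a * b⁻¹)) * b * b := by group
            _ = b * ((a * b⁻¹) * b⁻¹) * b * b := by rw [h]
            _ = b * a := by group
        have hexp := key b⁻¹ (a * b⁻¹) hcl hnc (by rw [conj_pow, hab]; group)
        exact (fin hexp).mpr hab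

theorem pow_eq_iff (hG : IsRegularPGroup p G) (k : ℕ) (a b : G) :
    a ^ p ^ k = b ^ p ^ k ↔ (a * b⁻¹) ^ p ^ k = 1 :=
  pow_eq_iff_aux hG k _ a b le_rfl

theorem comm_iff (hG : IsRegularPGroup p G) (k : ℕ) (a b : G) :
    a ^ p ^ k * b = b * a ^ p ^ k ↔ (a⁻¹ * b⁻¹ * a * b) ^ p ^ k = 1 := by
  have h1 := pow_eq_iff hG k (b⁻¹ * a * b) a
  have e1 : (b⁻¹ * a * b) ^ p ^ k = b⁻¹ * a ^ p ^ k * b := by
    have := conj_pow (a := b⁻¹) (b := a) (i := p ^ k)
    simpa using this
  have e2 : (a⁻¹ * b⁻¹ * a * b) ^ p ^ k = a⁻¹ * (b⁻¹ * a * b * a⁻¹) ^ p ^ k * a := by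
    have := conj_pow (a := a⁻¹) (b := b⁻¹ * a * b * a⁻¹) (i := p ^ k)
    rw [inv_inv] at this
    rw [← this]; congr 1; group
  constructor
  · intro h
    have h2 : (b⁻¹ * a * b) ^ p ^ k = a ^ p ^ k := by rw [e1, mul_assoc, h]; group
    have h3 := h1.mp h2
    rw [e2, h3]; group
  · intro h
    have h3 : (b⁻¹ * a * b * a⁻¹) ^ p ^ k = 1 := by
      have e3 : (b⁻¹ * a * b * a⁻¹) ^ p ^ k
          = a * (a⁻¹ * (b⁻¹ * a * b * a⁻¹) ^ p ^ k * a) * a⁻¹ := by group
      rw [e3, ← e2, h]; group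
    have h2 := h1.mpr h3
    rw [e1] at h2
    calc a ^ p ^ k * b = b * (b⁻¹ * a ^ p ^ k * b) := by group
      _ = b * a ^ p ^ k := by rw [h2]

theorem omega_subgroup (hG : IsRegularPGroup p G) (k : ℕ) :
    ∃ H : Subgroup G, H.Characteristic ∧ (H : Set G) = {x : G | x ^ p ^ k = 1} := by
  let H : Subgroup G :=
    { carrier := {x : G | x ^ p ^ k = 1}
      one_mem' := one_pow _
      mul_mem' := by
        intro x y hx hy
        have hx' : x ^ p ^ k = 1 := hx
        have hy' : y ^ p ^ k = 1 := hy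
        have := (pow_eq_iff hG k x y⁻¹).mp (by rw [hx', inv_pow, hy', inv_one])
        rwa [inv_inv] at this
      inv_mem' := by
        intro x hx
        have hx' : x ^ p ^ k = 1 := hx
        show x⁻¹ ^ p ^ k = 1
        rw [inv_pow, hx', inv_one] }
  refine ⟨H, ?_, rfl⟩
  rw [Subgroup.characteristic_iff_le_comap]
  intro ϕ x hx
  have hx' : x ^ p ^ k = 1 := hx
  show (ϕ x) ^ p ^ k = 1
  rw [← map_pow, hx', map_one]

theorem exists_pow_of_mem_powerClosure_aux (hG : IsRegularPGroup p G) (n : ℕ) :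
    ∀ m : ℕ, ∀ H : Subgroup G, Nat.card H ≤ m →
      ∀ y ∈ powerClosure p n H, ∃ x ∈ H, y = x ^ p ^ n := by
  intro m
  induction m using Nat.strong_induction_on with
  | _ m ih =>
    intro H hcard y hy
    unfold powerClosure at hy
    refine Subgroup.closure_induction (p := fun y _ => ∃ x ∈ H, y = x ^ p ^ n) ?_ ?_ ?_ ?_ hy
    · intro y hy; exact hy
    · exact ⟨1, one_mem _, (one_pow _).symm⟩
    · rintro y₁ y₂ _ _ ⟨x₁, hx₁, rfl⟩ ⟨x₂, hx₂, rfl⟩
      by_cases hcomm : x₁ * x₂ = x₂ * x₁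
      · exact ⟨x₁ * x₂, mul_mem hx₁ hx₂, ((show Commute x₁ x₂ from hcomm).mul_pow _).symm⟩
      · obtain ⟨G₀, hG₀⟩ : ∃ G₀ : Subgroup G, G₀ = closure ({x₁, x₂} : Set G) := ⟨_, rfl⟩
        have h1G₀ : x₁ ∈ G₀ := hG₀ ▸ mem_cl_left x₁ x₂
        have h2G₀ : x₂ ∈ G₀ := hG₀ ▸ mem_cl_right x₁ x₂
        have hG₀H : G₀ ≤ H := by
          rw [hG₀, closure_le]; rintro z (rfl | rfl)
          · exact hx₁
          · exact hx₂
        obtain ⟨c, hc, hreg⟩ := hG.2 x₁ x₂ n
        rw [← hG₀] at hc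
        have hcl : closure ({x₁, x₁ * x₂} : Set G) = G₀ := by
          rw [hG₀]
          refine closure_pair_eq (mem_cl_left x₁ x₂) (mul_mem (mem_cl_left x₁ x₂) (mem_cl_right x₁ x₂))
            (mem_cl_left _ _) ?_
          have h1 : x₁ * x₂ ∈ closure ({x₁, x₁ * x₂} : Set G) := mem_cl_right _ _
          have h2 : x₁ ∈ closure ({x₁, x₁ * x₂} : Set G) := mem_cl_left _ _
          have := mul_mem (inv_mem h2) h1
          simpa using this
        have hnc : x₁ * (x₁ * x₂) ≠ (x₁ * x₂) * x₁ := by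
          intro h; apply hcomm
          have : x₁ * (x₁ * x₂) = x₁ * (x₂ * x₁) := by rw [h]; group
          exact mul_left_cancel this
        have hlt := card_lt_of_not_comm hG.1 x₁ (x₁ * x₂) hnc
        rw [hcl] at hlt
        have hG₀m : Nat.card G₀ ≤ m := (Subgroup.card_le_of_le hG₀H).trans hcard
        have hDlt : Nat.card (⁅G₀, G₀⁆ : Subgroup G) < m :=
          lt_of_le_of_lt (Subgroup.card_le_of_le le_sup_right) (lt_of_lt_of_le hlt hG₀m)
        obtain ⟨d, hd, hdc⟩ := ih _ hDlt ⁅G₀, G₀⁆ le_rfl c⁻¹ (inv_mem hc)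
        have he : x₁ ^ p ^ n * x₂ ^ p ^ n = (x₁ * x₂) ^ p ^ n * d ^ p ^ n := by
          rw [← hdc, hreg]; group
        have hH₂lt : Nat.card (zpowers (x₁ * x₂) ⊔ ⁅G₀, G₀⁆ : Subgroup G) < m :=
          lt_of_lt_of_le hlt hG₀m
        have hmem : (x₁ * x₂) ^ p ^ n * d ^ p ^ n ∈
            powerClosure p n (zpowers (x₁ * x₂) ⊔ ⁅G₀, G₀⁆) := by
          unfold powerClosure
          apply mul_mem
          · exact Subgroup.subset_closure ⟨x₁ * x₂, mem_sup_left (mem_zpowers _), rfl⟩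
          · exact Subgroup.subset_closure ⟨d, mem_sup_right hd, rfl⟩
        obtain ⟨z, hz, hze⟩ := ih _ hH₂lt _ le_rfl _ hmem
        refine ⟨z, ?_, ?_⟩
        · apply hG₀H
          have hle : zpowers (x₁ * x₂) ⊔ ⁅G₀, G₀⁆ ≤ G₀ :=
            sup_le (zpowers_le.mpr (mul_mem h1G₀ h2G₀)) (comm_le_self G₀)
          exact hle hz
        · rw [he, hze]
    · rintro y _ ⟨x, hx, rfl⟩
      exact ⟨x⁻¹, inv_mem hx, (inv_pow _ _).symm⟩

theorem powerClosure_coe (hG : IsRegularPGroup p G) (H : Subgroup G) (n : ℕ) :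
    {y : G | ∃ x ∈ H, y = x ^ (p ^ n)} = (powerClosure p n H : Set G) := by
  ext y
  constructor
  · intro hy; exact Subgroup.subset_closure hy
  · intro hy; exact exists_pow_of_mem_powerClosure_aux hG n _ H le_rfl y hy

theorem comm_pow_mem (hG : IsRegularPGroup p G) (n : ℕ) (x y : G) :
    ⁅y, x ^ p ^ n⁆ ∈
      powerClosure p n ⁅closure ({x, y} : Set G), closure ({x, y} : Set G)⁆ := by
  obtain ⟨G₀, hG₀⟩ : ∃ G₀ : Subgroup G, G₀ = closure ({x, y} : Set G) := ⟨_, rfl⟩
  rw [← hG₀]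
  have hx : x ∈ G₀ := hG₀ ▸ mem_cl_left x y
  have hy : y ∈ G₀ := hG₀ ▸ mem_cl_right x y
  obtain ⟨c, hc, hreg⟩ := hG.2 ⁅y, x⁆ x n
  have hcW : c ∈ powerClosure p n ⁅G₀, G₀⁆ := by
    refine powerClosure_mono n ?_ hc
    have hle : closure ({⁅y, x⁆, x} : Set G) ≤ G₀ := by
      rw [closure_le]; rintro z (rfl | rfl)
      · exact comm_le_self G₀ (commutator_mem_commutator hy hx)
      · exact hx
    exact commutator_mono hle hle
  have hwW : ⁅y, x⁆ ^ p ^ n ∈ powerClosure p n ⁅G₀, G₀⁆ :=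
    Subgroup.subset_closure ⟨⁅y, x⁆, commutator_mem_commutator hy hx, rfl⟩
  have h1 : y * x ^ p ^ n * y⁻¹ = ⁅y, x⁆ ^ p ^ n * x ^ p ^ n * c := by
    rw [← conj_pow, ← hreg]
    congr 1
    simp only [commutatorElement_def]; group
  have h2 : ⁅y, x ^ p ^ n⁆ = ⁅y, x⁆ ^ p ^ n * (x ^ p ^ n * c * (x ^ p ^ n)⁻¹) := by
    rw [commutatorElement_def, h1]; group
  rw [h2]
  apply mul_mem hwW
  apply powerClosure_conj n ⁅G₀, G₀⁆ (x ^ p ^ n) _ c hcW
  intro d hd
  have hg : x ^ p ^ n ∈ G₀ := pow_mem hx _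
  have e : x ^ p ^ n * d * (x ^ p ^ n)⁻¹ = ⁅x ^ p ^ n, d⁆ * d := by
    simp only [commutatorElement_def]; group
  rw [e]
  exact mul_mem (commutator_mem_commutator hg (comm_le_self G₀ hd)) hd

theorem comm_powerClosure_le (hG : IsRegularPGroup p G) (H : Subgroup G) (n : ℕ) :
    ⁅powerClosure p n H, powerClosure p n H⁆ ≤ powerClosure p n ⁅H, H⁆ := by
  rw [Subgroup.commutator_le]
  intro g₁ h₁ g₂ h₂
  obtain ⟨x₁, hx₁, rfl⟩ := exists_pow_of_mem_powerClosure_aux hG n _ H le_rfl g₁ h₁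
  obtain ⟨x₂, hx₂, rfl⟩ := exists_pow_of_mem_powerClosure_aux hG n _ H le_rfl g₂ h₂
  have h := comm_pow_mem hG n x₂ (x₁ ^ p ^ n)
  refine powerClosure_mono n ?_ h
  have hle : closure ({x₂, x₁ ^ p ^ n} : Set G) ≤ H := by
    rw [closure_le]; rintro z (rfl | rfl)
    · exact hx₂
    · exact pow_mem hx₁ _
  exact commutator_mono hle hle

end reg

end Cfsg.Agent.Lib.Helper7.Regular
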