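import Mathlib
import Cfsg.Prelude.Def_CaseTheorems
import Cfsg.Agent.Lib.Helper1.MaxCl

set_option autoImplicit false

namespace Cfsg.Agent.Lib.Helper7.Wr

open Cfsg Cfsg.Agent.Lib.Helper1
open scoped commutatorElement

/-- Normal form data of a wreathed group `Z_{2^n} ≀ Z_2`. -/
def Data {S : Type*} [Group S] (n : ℕ) (x y z : S) : Prop :=
  2 ≤ n ∧ Nat.card S = 2 ^ (2 * n + 1) ∧ orderOf x = 2 ^ n ∧ x * y = y * x ∧
    Subgroup.zpowers x ⊓ Subgroup.zpowers y = ⊥ ∧ orderOf z = 2 ∧ z * x * z⁻¹ = y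

theorem setup {S : Type*} [Group S] (hS : Cfsg.IsWreathed S) :
    ∃ (n : ℕ) (x y z : S), Data n x y z := by
  obtain ⟨n, hn, hcard, x, y, z, h1, h2, h3, h4, h5⟩ := hS
  exact ⟨n, x, y, z, hn, hcard, h1, h2, h3, h4, h5⟩

/-- membership in `N ⊔ ⟨t⟩` for `N` normal and `t² ∈ N`. -/
theorem mem_sup_gen {G : Type*} [Group G] (N : Subgroup G) [N.Normal] (t : G)
    (ht2 : t * t ∈ N) (g : G) (hg : g ∈ N ⊔ Subgroup.zpowers t) :
    g ∈ N ∨ g * t⁻¹ ∈ N := by
  have h1 : g ∈ ((N ⊔ Subgroup.zpowers t : Subgroup G) : Set G) := hg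
  rw [Subgroup.normal_mul, Set.mem_mul] at h1
  obtain ⟨a, ha, b, hb, rfl⟩ := h1
  obtain ⟨j, rfl⟩ := Subgroup.mem_zpowers_iff.mp hb
  rcases Int.even_or_odd' j with ⟨m, rfl | rfl⟩
  · left
    rw [zpow_mul, zpow_two]
    exact Subgroup.mul_mem _ ha (Subgroup.zpow_mem _ ht2 m)
  · right
    have h2 : a * t ^ (2 * m + 1) * t⁻¹ = a * (t * t) ^ m := by
      rw [zpow_add, zpow_mul, zpow_two, zpow_one]; group
    rw [h2]
    exact Subgroup.mul_mem _ ha (Subgroup.zpow_mem _ ht2 m)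

theorem card_sup_gen {G : Type*} [Group G] [Finite G] (N : Subgroup G) [N.Normal] (t : G)
    (ht : t ∉ N) (ht2 : t * t ∈ N) :
    Nat.card (N ⊔ Subgroup.zpowers t : Subgroup G) = 2 * Nat.card N := by
  obtain ⟨K, hK⟩ : ∃ K : Subgroup G, K = N ⊔ Subgroup.zpowers t := ⟨_, rfl⟩
  rw [← hK]
  have hAK : N ≤ K := by rw [hK]; exact le_sup_left
  have htK : t ∈ K := by rw [hK]; exact Subgroup.mem_sup_right (Subgroup.mem_zpowers t)
  have hrel : N.relIndex K = 2 := by
    show (N.subgroupOf K).index = 2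
    rw [Subgroup.index_eq_two_iff]
    refine ⟨⟨t, htK⟩, fun b => ?_⟩
    rw [Subgroup.mem_subgroupOf, Subgroup.mem_subgroupOf]
    show Xor' ((b : G) * t ∈ N) ((b : G) ∈ N)
    by_cases hb : (b : G) ∈ N
    · right
      refine ⟨hb, fun hbt => ht ?_⟩
      have h1 := Subgroup.mul_mem _ (Subgroup.inv_mem _ hb) hbt
      rwa [inv_mul_cancel_left] at h1
    · left
      refine ⟨?_, hb⟩
      have hbK : (b : G) ∈ N ⊔ Subgroup.zpowers t := by
        rw [← hK]; exact b.2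
      rcases mem_sup_gen N t ht2 b hbK with h1 | h1
      · exact absurd h1 hb
      · have h2 : (b : G) * t = (b : G) * t⁻¹ * (t * t) := by group
        rw [h2]
        exact Subgroup.mul_mem _ h1 ht2
  have h1 := Subgroup.relIndex_mul_relIndex ⊥ N K bot_le hAK
  rw [Subgroup.relIndex_bot_left, Subgroup.relIndex_bot_left, hrel] at h1
  rw [← h1]; ring

section
variable {S : Type*} [Group S] {n : ℕ} {x y z : S}

theorem zz (h : Data n x y z) : z * z = 1 := by
  have := pow_orderOf_eq_one z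
  rw [h.2.2.2.2.2.1, pow_two] at this
  exact this

theorem z_inv (h : Data n x y z) : z⁻¹ = z := inv_eq_of_mul_eq_one_left (zz h)

theorem zx (h : Data n x y z) : z * x * z⁻¹ = y := h.2.2.2.2.2.2

theorem zy (h : Data n x y z) : z * y * z⁻¹ = x := by
  rw [← zx h]
  have := zz h
  rw [z_inv h]
  calc z * (z * x * z) * z = (z * z) * x * (z * z) := by group
    _ = x := by rw [this]; group

theorem comm (h : Data n x y z) : Commute x y := h.2.2.2.1

theorem order_x (h : Data n x y z) : orderOf x = 2 ^ n := h.2.2.1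

theorem order_y (h : Data n x y z) : orderOf y = 2 ^ n := by
  have := MulEquiv.orderOf_eq (MulAut.conj z) x
  rw [MulAut.conj_apply, zx h, order_x h] at this
  exact this

theorem disj (h : Data n x y z) (i j : ℤ) (hij : x ^ i = y ^ j) : x ^ i = 1 ∧ y ^ j = 1 := by
  have h1 : x ^ i ∈ Subgroup.zpowers x ⊓ Subgroup.zpowers y :=
    ⟨Subgroup.zpow_mem_zpowers x i, by rw [hij]; exact Subgroup.zpow_mem_zpowers y j⟩
  rw [h.2.2.2.2.1, Subgroup.mem_bot] at h1
  exact ⟨h1, by rw [← hij]; exact h1⟩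

theorem prod_eq_one (h : Data n x y z) (i j : ℤ) (hij : x ^ i * y ^ j = 1) :
    x ^ i = 1 ∧ y ^ j = 1 := by
  have h1 : x ^ i = y ^ (-j) := by rw [zpow_neg]; exact eq_inv_of_mul_eq_one_left hij
  obtain ⟨h2, h3⟩ := disj h i (-j) h1
  refine ⟨h2, ?_⟩
  rw [zpow_neg, inv_eq_one] at h3; exact h3

theorem x_zpow_eq_one (h : Data n x y z) (i : ℤ) : x ^ i = 1 ↔ ((2 ^ n : ℕ) : ℤ) ∣ i := by
  rw [← order_x h]; exact (orderOf_dvd_iff_zpow_eq_one).symm

theorem y_zpow_eq_one (h : Data n x y z) (i : ℤ) : y ^ i = 1 ↔ ((2 ^ n : ℕ) : ℤ) ∣ i := by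
  rw [← order_y h]; exact (orderOf_dvd_iff_zpow_eq_one).symm

theorem x_ne_one (h : Data n x y z) : x ≠ 1 := by
  intro h1
  have := order_x h
  rw [h1, orderOf_one] at this
  have h2 : 2 ^ 1 ≤ 2 ^ n := Nat.pow_le_pow_right (by norm_num) (by have := h.1; omega)
  omega

theorem x_ne_y (h : Data n x y z) : x ≠ y := by
  intro hxy
  have := disj h 1 1 (by simpa using hxy)
  simp only [zpow_one] at this
  exact x_ne_one h this.1

theorem z_conj (h : Data n x y z) (i j : ℤ) : z * (x ^ i * y ^ j) * z⁻¹ = x ^ j * y ^ i := by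
  have h1 : z * (x ^ i * y ^ j) * z⁻¹ = (z * x * z⁻¹) ^ i * (z * y * z⁻¹) ^ j := by
    rw [conj_zpow, conj_zpow]; group
  rw [h1, zx h, zy h]
  exact ((comm h).symm.zpow_zpow i j).eq

theorem comm_A (i j : ℤ) (a : S) (hax : Commute x a) (hay : Commute y a) :
    Commute (x ^ i * y ^ j) a := (hax.zpow_left i).mul_left (hay.zpow_left j)

/-- the base subgroup `⟨x⟩ × ⟨y⟩`. -/
def A (x y : S) : Subgroup S := Subgroup.zpowers x ⊔ Subgroup.zpowers y

theorem mem_A (h : Data n x y z) (g : S) : g ∈ A x y ↔ ∃ i j : ℤ, g = x ^ i * y ^ j := by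
  constructor
  · intro hg
    let A' : Subgroup S :=
      { carrier := {g | ∃ i j : ℤ, g = x ^ i * y ^ j}
        one_mem' := ⟨0, 0, by simp⟩
        mul_mem' := by
          rintro _ _ ⟨i, j, rfl⟩ ⟨i', j', rfl⟩
          refine ⟨i + i', j + j', ?_⟩
          rw [zpow_add, zpow_add]
          have hc : Commute (y ^ j) (x ^ i') := ((comm h).symm.zpow_zpow j i')
          calc x ^ i * y ^ j * (x ^ i' * y ^ j') = x ^ i * (y ^ j * x ^ i') * y ^ j' := by group
            _ = x ^ i * (x ^ i' * y ^ j) * y ^ j' := by rw [hc.eq]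
            _ = x ^ i * x ^ i' * (y ^ j * y ^ j') := by group
        inv_mem' := by
          rintro _ ⟨i, j, rfl⟩
          refine ⟨-i, -j, ?_⟩
          rw [mul_inv_rev, zpow_neg, zpow_neg]
          exact ((comm h).symm.zpow_zpow j i).inv_inv.eq }
    have hle : A x y ≤ A' := by
      apply sup_le
      · rw [Subgroup.zpowers_le]; exact ⟨1, 0, by simp⟩
      · rw [Subgroup.zpowers_le]; exact ⟨0, 1, by simp⟩
    exact hle hg
  · rintro ⟨i, j, rfl⟩
    exact Subgroup.mul_mem _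
      ((le_sup_left : Subgroup.zpowers x ≤ A x y) (Subgroup.zpow_mem_zpowers x i))
      ((le_sup_right : Subgroup.zpowers y ≤ A x y) (Subgroup.zpow_mem_zpowers y j))

theorem card_A [Finite S] (h : Data n x y z) : Nat.card (A x y) = 2 ^ (2 * n) := by
  have e : (Subgroup.zpowers x × Subgroup.zpowers y) ≃ A x y := by
    refine Equiv.ofBijective (fun p => ⟨(p.1 : S) * (p.2 : S),
      Subgroup.mul_mem _ ((le_sup_left : Subgroup.zpowers x ≤ A x y) p.1.2)
        ((le_sup_right : Subgroup.zpowers y ≤ A x y) p.2.2)⟩) ⟨?_, ?_⟩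
    · rintro ⟨⟨a, ha⟩, ⟨b, hb⟩⟩ ⟨⟨a', ha'⟩, ⟨b', hb'⟩⟩ hab
      simp only [Subtype.mk.injEq] at hab
      obtain ⟨i, rfl⟩ := Subgroup.mem_zpowers_iff.1 ha
      obtain ⟨j, rfl⟩ := Subgroup.mem_zpowers_iff.1 hb
      obtain ⟨i', rfl⟩ := Subgroup.mem_zpowers_iff.1 ha'
      obtain ⟨j', rfl⟩ := Subgroup.mem_zpowers_iff.1 hb'
      have h1 : x ^ (-i' + i) = y ^ (j' - j) := by
        rw [zpow_add, zpow_sub, zpow_neg, inv_mul_eq_iff_eq_mul, ← mul_assoc, ← hab,
          mul_inv_cancel_right]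
      obtain ⟨h2, h3⟩ := disj h _ _ h1
      rw [zpow_add, zpow_neg, inv_mul_eq_one] at h2
      rw [zpow_sub, mul_inv_eq_one] at h3
      simp only [Prod.mk.injEq, Subtype.mk.injEq]
      exact ⟨h2.symm, h3.symm⟩
    · rintro ⟨g, hg⟩
      obtain ⟨i, j, rfl⟩ := (mem_A h g).1 hg
      exact ⟨(⟨x ^ i, Subgroup.zpow_mem_zpowers x i⟩, ⟨y ^ j, Subgroup.zpow_mem_zpowers y j⟩),
        rfl⟩
  rw [← Nat.card_congr e, Nat.card_prod, Nat.card_zpowers, Nat.card_zpowers, order_x h,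
    order_y h, ← pow_add]
  congr 1; ring

theorem z_notMem_A (h : Data n x y z) : z ∉ A x y := by
  intro hz
  obtain ⟨i, j, hij⟩ := (mem_A h z).1 hz
  have h1 : z * x * z⁻¹ = x := by
    rw [hij]
    have hc : Commute (x ^ i * y ^ j) x := comm_A i j x (Commute.refl x) (comm h).symm
    rw [hc.eq, mul_inv_cancel_right]
  rw [zx h] at h1
  exact x_ne_y h h1.symm

theorem index_A [Finite S] (h : Data n x y z) : (A x y).index = 2 := by
  have h1 := Subgroup.card_mul_index (A x y)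
  rw [card_A h, h.2.1] at h1
  have h2 : 2 ^ (2 * n) * (A x y).index = 2 ^ (2 * n) * 2 := by rw [h1]; ring
  exact Nat.eq_of_mul_eq_mul_left (by positivity) h2

theorem cases [Finite S] (h : Data n x y z) (g : S) :
    (∃ i j : ℤ, g = x ^ i * y ^ j) ∨ (∃ i j : ℤ, g = x ^ i * y ^ j * z) := by
  by_cases hg : g ∈ A x y
  · left; exact (mem_A h g).1 hg
  · right
    have h1 : g * z ∈ A x y := by
      rw [Subgroup.mul_mem_iff_of_index_two (index_A h)]
      exact iff_of_false hg (z_notMem_A h)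
    obtain ⟨i, j, hij⟩ := (mem_A h _).1 h1
    refine ⟨i, j, ?_⟩
    rw [← hij, mul_assoc, zz h, mul_one]

theorem zx' (h : Data n x y z) : z * x = y * z := by rw [← zx h]; group

theorem zy' (h : Data n x y z) : z * y = x * z := by rw [← zy h]; group

theorem xy_mem_center [Finite S] (h : Data n x y z) : x * y ∈ Subgroup.center S := by
  rw [Subgroup.mem_center_iff]
  have hcx : Commute x (x * y) := (Commute.refl x).mul_right (comm h)
  have hcy : Commute y (x * y) := (comm h).symm.mul_right (Commute.refl y)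
  have hcz : Commute z (x * y) := by
    show z * (x * y) = x * y * z
    calc z * (x * y) = (z * x) * y := by group
      _ = y * (z * y) := by rw [zx' h]; group
      _ = y * x * z := by rw [zy' h]; group
      _ = x * y * z := by rw [(comm h).eq]
  intro g
  rcases cases h g with ⟨i, j, rfl⟩ | ⟨i, j, rfl⟩
  · exact (comm_A i j _ hcx hcy).eq
  · exact ((comm_A i j _ hcx hcy).mul_left hcz).eq

theorem center_eq [Finite S] (h : Data n x y z) :
    Subgroup.center S = Subgroup.zpowers (x * y) := by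
  apply le_antisymm
  · intro g hg
    rw [Subgroup.mem_center_iff] at hg
    rcases cases h g with ⟨i, j, rfl⟩ | ⟨i, j, rfl⟩
    · have h1 := hg z
      have h2 : z * (x ^ i * y ^ j) * z⁻¹ = x ^ i * y ^ j := by rw [h1, mul_inv_cancel_right]
      rw [z_conj h] at h2
      have h3 : x ^ (-i + j) = y ^ (j - i) := by
        rw [zpow_add, zpow_sub, zpow_neg, inv_mul_eq_iff_eq_mul, ← mul_assoc, ← h2,
          mul_inv_cancel_right]
      obtain ⟨h4, h5⟩ := disj h _ _ h3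
      rw [zpow_sub, mul_inv_eq_one] at h5
      rw [h5, ← (comm h).mul_zpow]
      exact Subgroup.zpow_mem_zpowers _ i
    · exfalso
      have h1 := hg x
      have h2 : (x ^ i * y ^ j * z) * x * (x ^ i * y ^ j * z)⁻¹ = y := by
        have h3 : (x ^ i * y ^ j * z) * x * (x ^ i * y ^ j * z)⁻¹ =
            (x ^ i * y ^ j) * (z * x * z⁻¹) * (x ^ i * y ^ j)⁻¹ := by group
        rw [h3, zx h]
        have hc : Commute (x ^ i * y ^ j) y := comm_A i j y (comm h) (Commute.refl y)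
        rw [hc.eq, mul_inv_cancel_right]
      rw [← h1, mul_inv_cancel_right] at h2
      exact x_ne_y h h2
  · rw [Subgroup.zpowers_le]; exact xy_mem_center h

theorem x_pow (h : Data n x y z) : x ^ (2 ^ n) = 1 := by
  rw [← order_x h]; exact pow_orderOf_eq_one x

theorem y_pow (h : Data n x y z) : y ^ (2 ^ n) = 1 := by
  rw [← order_y h]; exact pow_orderOf_eq_one y

theorem order_xy (h : Data n x y z) : orderOf (x * y) = 2 ^ n := by
  apply Nat.dvd_antisymm
  · apply orderOf_dvd_of_pow_eq_one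
    rw [(comm h).mul_pow, x_pow h, y_pow h, one_mul]
  · have h1 : (x * y) ^ orderOf (x * y) = 1 := pow_orderOf_eq_one _
    rw [(comm h).mul_pow] at h1
    have h2 := prod_eq_one h (orderOf (x * y) : ℤ) (orderOf (x * y) : ℤ)
      (by rw [zpow_natCast, zpow_natCast]; exact h1)
    have h3 := h2.1
    rw [zpow_natCast] at h3
    rw [← order_x h]
    exact orderOf_dvd_of_pow_eq_one h3

theorem order_d (h : Data n x y z) : orderOf (x⁻¹ * y) = 2 ^ n := by
  have hc : Commute x⁻¹ y := (comm h).inv_left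
  apply Nat.dvd_antisymm
  · apply orderOf_dvd_of_pow_eq_one
    rw [hc.mul_pow, inv_pow, x_pow h, y_pow h, inv_one, one_mul]
  · have h1 : (x⁻¹ * y) ^ orderOf (x⁻¹ * y) = 1 := pow_orderOf_eq_one _
    rw [hc.mul_pow] at h1
    have h2 := prod_eq_one h (-(orderOf (x⁻¹ * y) : ℤ)) (orderOf (x⁻¹ * y) : ℤ)
      (by rw [zpow_neg, zpow_natCast, zpow_natCast, ← inv_pow]; exact h1)
    have h3 := h2.2
    rw [zpow_natCast] at h3
    rw [← order_y h]
    exact orderOf_dvd_of_pow_eq_one h3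

theorem comm_x_d (h : Data n x y z) : Commute x (x⁻¹ * y) :=
  (Commute.refl x).inv_right.mul_right (comm h)

theorem comm_y_d (h : Data n x y z) : Commute y (x⁻¹ * y) :=
  (comm h).symm.inv_right.mul_right (Commute.refl y)

theorem z_conj_d (h : Data n x y z) : z * (x⁻¹ * y) * z⁻¹ = (x⁻¹ * y)⁻¹ := by
  have h1 : z * (x⁻¹ * y) * z⁻¹ = (z * x * z⁻¹)⁻¹ * (z * y * z⁻¹) := by group
  rw [h1, zx h, zy h, mul_inv_rev, inv_inv]

theorem conj_d_mem [Finite S] (h : Data n x y z) (g : S) :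
    g * (x⁻¹ * y) * g⁻¹ ∈ Subgroup.zpowers (x⁻¹ * y) := by
  rcases cases h g with ⟨i, j, rfl⟩ | ⟨i, j, rfl⟩
  · have hc : Commute (x ^ i * y ^ j) (x⁻¹ * y) := comm_A i j _ (comm_x_d h) (comm_y_d h)
    rw [hc.eq, mul_inv_cancel_right]
    exact Subgroup.mem_zpowers _
  · have h1 : (x ^ i * y ^ j * z) * (x⁻¹ * y) * (x ^ i * y ^ j * z)⁻¹ =
        (x ^ i * y ^ j) * (z * (x⁻¹ * y) * z⁻¹) * (x ^ i * y ^ j)⁻¹ := by group
    rw [h1, z_conj_d h]
    have hc : Commute (x ^ i * y ^ j) (x⁻¹ * y)⁻¹ :=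
      (comm_A i j _ (comm_x_d h) (comm_y_d h)).inv_right
    rw [hc.eq, mul_inv_cancel_right]
    exact Subgroup.inv_mem _ (Subgroup.mem_zpowers _)

theorem normal_d [Finite S] (h : Data n x y z) : (Subgroup.zpowers (x⁻¹ * y)).Normal := by
  constructor
  intro a ha g
  obtain ⟨m, rfl⟩ := Subgroup.mem_zpowers_iff.1 ha
  rw [← conj_zpow]
  exact Subgroup.zpow_mem _ (conj_d_mem h g) m

theorem commutator_eq [Finite S] (h : Data n x y z) :
    commutator S = Subgroup.zpowers (x⁻¹ * y) := by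
  haveI := normal_d h
  apply le_antisymm
  · have hX : ((x : S) : S ⧸ Subgroup.zpowers (x⁻¹ * y)) = (y : S ⧸ Subgroup.zpowers (x⁻¹ * y)) := by
      rw [QuotientGroup.eq]; exact Subgroup.mem_zpowers _
    have hform : ∀ g : S, ∃ (m : ℤ) (e : ℕ), (g : S ⧸ Subgroup.zpowers (x⁻¹ * y)) =
        (x : S ⧸ Subgroup.zpowers (x⁻¹ * y)) ^ m * (z : S ⧸ Subgroup.zpowers (x⁻¹ * y)) ^ e := by
      intro g
      rcases cases h g with ⟨i, j, rfl⟩ | ⟨i, j, rfl⟩
      · refine ⟨i + j, 0, ?_⟩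
        simp only [QuotientGroup.mk_mul, QuotientGroup.mk_zpow, pow_zero, mul_one]
        rw [← hX, zpow_add]
      · refine ⟨i + j, 1, ?_⟩
        simp only [QuotientGroup.mk_mul, QuotientGroup.mk_zpow, pow_one]
        rw [← hX, zpow_add]
    have hXZ : Commute ((x : S) : S ⧸ Subgroup.zpowers (x⁻¹ * y))
        (z : S ⧸ Subgroup.zpowers (x⁻¹ * y)) := by
      have h2 := congrArg (QuotientGroup.mk : S → S ⧸ Subgroup.zpowers (x⁻¹ * y)) (zx' h)
      simp only [QuotientGroup.mk_mul] at h2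
      rw [← hX] at h2
      exact h2.symm
    rw [commutator_eq_closure, Subgroup.closure_le]
    rintro _ ⟨a, b, rfl⟩
    rw [SetLike.mem_coe, ← QuotientGroup.eq_one_iff, commutatorElement_def]
    simp only [QuotientGroup.mk_mul, QuotientGroup.mk_inv]
    obtain ⟨m, e, ha⟩ := hform a
    obtain ⟨m', e', hb⟩ := hform b
    have hc : Commute (a : S ⧸ Subgroup.zpowers (x⁻¹ * y)) (b : S ⧸ Subgroup.zpowers (x⁻¹ * y)) := by
      rw [ha, hb]
      exact (((Commute.refl _).zpow_zpow m m').mul_right ((hXZ.zpow_left m).pow_right e')).mul_left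
        (((hXZ.symm.pow_left e).zpow_right m').mul_right ((Commute.refl _).pow_pow e e'))
    rw [hc.eq]; group
  · rw [Subgroup.zpowers_le]
    have h1 : x⁻¹ * y = ⁅x⁻¹, z⁆ := by
      rw [commutatorElement_def, inv_inv, ← zx h]; group
    rw [h1, commutator_def]
    exact Subgroup.commutator_mem_commutator (Subgroup.mem_top _) (Subgroup.mem_top _)

theorem quot_center_dihedral [Finite S] (h : Data n x y z) :
    Nonempty (S ⧸ Subgroup.center S ≃* DihedralGroup (2 ^ n)) := by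
  haveI : NeZero (2 ^ n) := ⟨by positivity⟩
  have hxy : ((x : S) : S ⧸ Subgroup.center S) * (y : S ⧸ Subgroup.center S) = 1 := by
    rw [← QuotientGroup.mk_mul, QuotientGroup.eq_one_iff]; exact xy_mem_center h
  have hy' : ((y : S) : S ⧸ Subgroup.center S) = (x : S ⧸ Subgroup.center S)⁻¹ :=
    eq_inv_of_mul_eq_one_right hxy
  have hmem : ∀ i j : ℤ, ((x ^ i * y ^ j : S) : S ⧸ Subgroup.center S) ∈
      Subgroup.zpowers (x : S ⧸ Subgroup.center S) := by
    intro i j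
    rw [QuotientGroup.mk_mul, QuotientGroup.mk_zpow, QuotientGroup.mk_zpow, hy', inv_zpow',
      ← zpow_add]
    exact Subgroup.zpow_mem_zpowers _ _
  apply MaxCl.dih_recognize (2 ^ n) (x : S ⧸ Subgroup.center S) (z : S ⧸ Subgroup.center S)
  · rw [← QuotientGroup.mk_pow, x_pow h]; rfl
  · rw [← QuotientGroup.mk_mul, zz h]; rfl
  · rw [← QuotientGroup.mk_inv, ← QuotientGroup.mk_mul, ← QuotientGroup.mk_mul, zx h]
    exact hy'
  · rw [← Subgroup.index_eq_card]
    have h1 := Subgroup.card_mul_index (Subgroup.center S)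
    rw [center_eq h, Nat.card_zpowers, order_xy h, h.2.1] at h1
    rw [center_eq h]
    have h2 : 2 ^ n * (Subgroup.zpowers (x * y)).index = 2 ^ n * (2 * 2 ^ n) := by
      rw [h1]; ring
    exact Nat.eq_of_mul_eq_mul_left (by positivity) h2
  · intro g
    obtain ⟨s, rfl⟩ := QuotientGroup.mk_surjective g
    rcases cases h s with ⟨i, j, rfl⟩ | ⟨i, j, rfl⟩
    · left
      exact hmem i j
    · right
      have h1 : x ^ i * y ^ j * z = z * (x ^ j * y ^ i) := by
        rw [← z_conj h j i]; group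
      rw [h1, QuotientGroup.mk_mul, inv_mul_cancel_left]
      exact hmem j i

theorem x_mem_A : x ∈ A x y :=
  (le_sup_left : Subgroup.zpowers x ≤ A x y) (Subgroup.mem_zpowers x)

theorem y_mem_A : y ∈ A x y :=
  (le_sup_right : Subgroup.zpowers y ≤ A x y) (Subgroup.mem_zpowers y)

theorem A_comm (h : Data n x y z) (a b : S) (ha : a ∈ A x y) (hb : b ∈ A x y) :
    a * b = b * a := by
  obtain ⟨i, j, rfl⟩ := (mem_A h a).1 ha
  obtain ⟨i', j', rfl⟩ := (mem_A h b).1 hb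
  exact (comm_A i j _ (((Commute.refl x).zpow_right i').mul_right ((comm h).zpow_right j'))
    (((comm h).symm.zpow_right i').mul_right ((Commute.refl y).zpow_right j'))).eq

theorem d_zpow (h : Data n x y z) (m : ℤ) : (x⁻¹ * y) ^ m = x ^ (-m) * y ^ m := by
  rw [(comm h).inv_left.mul_zpow, inv_zpow']

theorem d_le_A (h : Data n x y z) : Subgroup.zpowers (x⁻¹ * y) ≤ A x y := by
  rw [Subgroup.zpowers_le]
  exact Subgroup.mul_mem _ (Subgroup.inv_mem _ x_mem_A) y_mem_A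

theorem two_pow (h : Data n x y z) : 2 ^ n = 2 * 2 ^ (n - 1) := by
  have h1 : n = (n - 1) + 1 := by have := h.1; omega
  conv_lhs => rw [h1, pow_succ]
  ring

theorem u_sq (h : Data n x y z) : x ^ 2 ^ (n - 1) * x ^ 2 ^ (n - 1) = 1 := by
  rw [← pow_add, ← two_mul, ← two_pow h, x_pow h]

theorem u_ne_one (h : Data n x y z) : x ^ 2 ^ (n - 1) ≠ 1 := by
  intro h1
  have h2 := orderOf_dvd_of_pow_eq_one h1
  rw [order_x h, two_pow h] at h2
  have h3 : 0 < 2 ^ (n - 1) := by positivity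
  have := Nat.le_of_dvd h3 h2
  omega

theorem order_u (h : Data n x y z) : orderOf (x ^ 2 ^ (n - 1)) = 2 := by
  haveI : Fact (Nat.Prime 2) := ⟨Nat.prime_two⟩
  exact orderOf_eq_prime (by rw [pow_two]; exact u_sq h) (u_ne_one h)

theorem v_conj (h : Data n x y z) : y ^ 2 ^ (n - 1) = z * x ^ 2 ^ (n - 1) * z⁻¹ := by
  rw [← conj_pow, zx h]

theorem order_v (h : Data n x y z) : orderOf (y ^ 2 ^ (n - 1)) = 2 := by
  have := MulEquiv.orderOf_eq (MulAut.conj z) (x ^ 2 ^ (n - 1))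
  rw [MulAut.conj_apply, ← v_conj h, order_u h] at this
  exact this

theorem v_sq (h : Data n x y z) : y ^ 2 ^ (n - 1) * y ^ 2 ^ (n - 1) = 1 := by
  rw [← pow_add, ← two_mul, ← two_pow h, y_pow h]

theorem v_ne_one (h : Data n x y z) : y ^ 2 ^ (n - 1) ≠ 1 := by
  intro h1
  have := order_v h
  rw [h1, orderOf_one] at this
  omega

theorem uv_center [Finite S] (h : Data n x y z) :
    x ^ 2 ^ (n - 1) * y ^ 2 ^ (n - 1) ∈ Subgroup.center S := by
  rw [← (comm h).mul_pow]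
  exact Subgroup.pow_mem _ (xy_mem_center h) _

theorem uv_ne_one (h : Data n x y z) : x ^ 2 ^ (n - 1) * y ^ 2 ^ (n - 1) ≠ 1 := by
  intro h1
  have h2 := prod_eq_one h ((2 ^ (n - 1) : ℕ) : ℤ) ((2 ^ (n - 1) : ℕ) : ℤ)
    (by rw [zpow_natCast, zpow_natCast]; exact h1)
  rw [zpow_natCast] at h2
  exact u_ne_one h h2.1

theorem order_uv (h : Data n x y z) : orderOf (x ^ 2 ^ (n - 1) * y ^ 2 ^ (n - 1)) = 2 := by
  haveI : Fact (Nat.Prime 2) := ⟨Nat.prime_two⟩
  refine orderOf_eq_prime ?_ (uv_ne_one h)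
  rw [← (comm h).mul_pow, ← pow_mul, mul_comm, ← two_pow h, (comm h).mul_pow, x_pow h, y_pow h,
    one_mul]

theorem u_notMem_D [Finite S] (h : Data n x y z) :
    x ^ 2 ^ (n - 1) ∉ Subgroup.zpowers (x⁻¹ * y) ⊔ Subgroup.zpowers z := by
  haveI := normal_d h
  intro hu
  have huA : x ^ 2 ^ (n - 1) ∈ A x y := Subgroup.pow_mem _ x_mem_A _
  rcases mem_sup_gen _ z (by rw [zz h]; exact Subgroup.one_mem _) _ hu with h1 | h1
  · obtain ⟨m, hm⟩ := Subgroup.mem_zpowers_iff.1 h1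
    rw [d_zpow h] at hm
    have h2 : x ^ (m + ((2 ^ (n - 1) : ℕ) : ℤ)) = y ^ m := by
      rw [zpow_add, zpow_natCast, ← hm]; group
    obtain ⟨h3, h4⟩ := disj h _ _ h2
    rw [x_zpow_eq_one h] at h3
    rw [y_zpow_eq_one h] at h4
    have h5 : ((2 ^ n : ℕ) : ℤ) ∣ ((2 ^ (n - 1) : ℕ) : ℤ) := (Int.dvd_add_right h4).1 h3
    have h6 := Int.natCast_dvd_natCast.1 h5
    have h7 : 0 < 2 ^ (n - 1) := by positivity
    have := Nat.le_of_dvd h7 h6
    rw [two_pow h] at this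
    omega
  · apply z_notMem_A h
    have h2 := Subgroup.mul_mem _ (Subgroup.inv_mem _ (d_le_A h h1)) huA
    simpa using h2

theorem card_D [Finite S] (h : Data n x y z) :
    Nat.card (Subgroup.zpowers (x⁻¹ * y) ⊔ Subgroup.zpowers z : Subgroup S) = 2 ^ (n + 1) := by
  haveI := normal_d h
  rw [card_sup_gen _ z (fun hz => z_notMem_A h (d_le_A h hz))
    (by rw [zz h]; exact Subgroup.one_mem _), Nat.card_zpowers, order_d h]
  ring

theorem normal_of_commutator_le {G : Type*} [Group G] (H : Subgroup G)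
    (hH : commutator G ≤ H) : H.Normal := by
  constructor
  intro a ha g
  have h1 : g * a * g⁻¹ = ⁅g, a⁆ * a := by rw [commutatorElement_def]; group
  rw [h1]
  exact Subgroup.mul_mem _ (hH (by
    rw [commutator_def]
    exact Subgroup.commutator_mem_commutator (Subgroup.mem_top _) (Subgroup.mem_top _))) ha

theorem normal_D [Finite S] (h : Data n x y z) :
    (Subgroup.zpowers (x⁻¹ * y) ⊔ Subgroup.zpowers z : Subgroup S).Normal :=
  normal_of_commutator_le _ (by rw [commutator_eq h]; exact le_sup_left)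

/-- the subgroup generated by the involutions. -/
def Om (n : ℕ) (x y z : S) : Subgroup S :=
  (Subgroup.zpowers (x⁻¹ * y) ⊔ Subgroup.zpowers z) ⊔ Subgroup.zpowers (x ^ 2 ^ (n - 1))

theorem card_Om [Finite S] (h : Data n x y z) : Nat.card (Om n x y z) = 2 ^ (n + 2) := by
  haveI := normal_D h
  unfold Om
  rw [card_sup_gen _ _ (u_notMem_D h) (by rw [u_sq h]; exact Subgroup.one_mem _), card_D h]
  ring

theorem sq_A (h : Data n x y z) (i j : ℤ) :
    (x ^ i * y ^ j) * (x ^ i * y ^ j) = x ^ (2 * i) * y ^ (2 * j) := by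
  have hc : Commute (y ^ j) (x ^ i) := (comm h).symm.zpow_zpow j i
  calc (x ^ i * y ^ j) * (x ^ i * y ^ j) = x ^ i * (y ^ j * x ^ i) * y ^ j := by group
    _ = x ^ i * (x ^ i * y ^ j) * y ^ j := by rw [hc.eq]
    _ = x ^ (2 * i) * y ^ (2 * j) := by rw [two_mul, two_mul, zpow_add, zpow_add]; group

theorem sq_Az (h : Data n x y z) (i j : ℤ) :
    (x ^ i * y ^ j * z) * (x ^ i * y ^ j * z) = x ^ (i + j) * y ^ (i + j) := by
  have h1 : (x ^ i * y ^ j * z) * (x ^ i * y ^ j * z) =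
      (x ^ i * y ^ j) * (z * (x ^ i * y ^ j) * z⁻¹) * (z * z) := by group
  rw [h1, z_conj h, zz h, mul_one]
  have hc : Commute (y ^ j) (x ^ j) := (comm h).symm.zpow_zpow j j
  calc x ^ i * y ^ j * (x ^ j * y ^ i) = x ^ i * (y ^ j * x ^ j) * y ^ i := by group
    _ = x ^ i * (x ^ j * y ^ j) * y ^ i := by rw [hc.eq]
    _ = x ^ (i + j) * y ^ (i + j) := by rw [zpow_add, zpow_add]; group

theorem inv_A (h : Data n x y z) (i j : ℤ)
    (ht : (x ^ i * y ^ j) * (x ^ i * y ^ j) = 1) :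
    ∃ a b : ℤ, x ^ i = (x ^ 2 ^ (n - 1)) ^ a ∧ y ^ j = (y ^ 2 ^ (n - 1)) ^ b := by
  rw [sq_A h] at ht
  obtain ⟨h1, h2⟩ := prod_eq_one h _ _ ht
  rw [x_zpow_eq_one h] at h1
  rw [y_zpow_eq_one h] at h2
  have e : ((2 ^ n : ℕ) : ℤ) = 2 * ((2 ^ (n - 1) : ℕ) : ℤ) := by
    rw [two_pow h]; push_cast; ring
  rw [e] at h1 h2
  obtain ⟨a, ha⟩ := (mul_dvd_mul_iff_left (by norm_num : (2 : ℤ) ≠ 0)).1 h1
  obtain ⟨b, hb⟩ := (mul_dvd_mul_iff_left (by norm_num : (2 : ℤ) ≠ 0)).1 h2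
  refine ⟨a, b, ?_, ?_⟩
  · rw [ha, zpow_mul, zpow_natCast]
  · rw [hb, zpow_mul, zpow_natCast]

theorem inv_Az (h : Data n x y z) (i j : ℤ)
    (ht : (x ^ i * y ^ j * z) * (x ^ i * y ^ j * z) = 1) :
    x ^ i * y ^ j * z = (x⁻¹ * y) ^ (-i) * z := by
  rw [sq_Az h] at ht
  obtain ⟨h1, h2⟩ := prod_eq_one h _ _ ht
  have h3 : y ^ j = y ^ (-i) := by
    rw [zpow_add] at h2
    rw [zpow_neg]; exact eq_inv_of_mul_eq_one_right h2
  rw [d_zpow h, neg_neg, h3]

theorem conj_z (h : Data n x y z) (i : ℤ) :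
    x ^ i * z * (x ^ i)⁻¹ = (x⁻¹ * y) ^ (-i) * z := by
  rw [d_zpow h, neg_neg]
  have h1 : z * (x ^ (-i) * y ^ (0 : ℤ)) * z⁻¹ = x ^ (0 : ℤ) * y ^ (-i) := z_conj h (-i) 0
  simp only [zpow_zero, mul_one, one_mul] at h1
  have h2 : x ^ i * z * (x ^ i)⁻¹ = x ^ i * (z * x ^ (-i) * z⁻¹) * z := by rw [zpow_neg]; group
  rw [h2, h1]

theorem omega_eq [Finite S] (h : Data n x y z) :
    Subgroup.closure {s : S | orderOf s = 2} = Om n x y z := by
  haveI : Fact (Nat.Prime 2) := ⟨Nat.prime_two⟩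
  have hzΩ : z ∈ Om n x y z :=
    Subgroup.mem_sup_left (Subgroup.mem_sup_right (Subgroup.mem_zpowers z))
  have huΩ : x ^ 2 ^ (n - 1) ∈ Om n x y z := Subgroup.mem_sup_right (Subgroup.mem_zpowers _)
  have hdΩ : x⁻¹ * y ∈ Om n x y z :=
    Subgroup.mem_sup_left (Subgroup.mem_sup_left (Subgroup.mem_zpowers _))
  apply le_antisymm
  · rw [Subgroup.closure_le]
    intro t ht
    have ht' : orderOf t = 2 := ht
    have ht2 : t * t = 1 := by
      have := pow_orderOf_eq_one t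
      rw [ht', pow_two] at this; exact this
    rcases cases h t with ⟨i, j, rfl⟩ | ⟨i, j, rfl⟩
    · obtain ⟨a, b, ha, hb⟩ := inv_A h i j ht2
      rw [SetLike.mem_coe, ha, hb]
      apply Subgroup.mul_mem
      · exact Subgroup.zpow_mem _ huΩ a
      · apply Subgroup.zpow_mem
        rw [v_conj h]
        exact Subgroup.mul_mem _ (Subgroup.mul_mem _ hzΩ huΩ) (Subgroup.inv_mem _ hzΩ)
    · rw [SetLike.mem_coe, inv_Az h i j ht2]
      exact Subgroup.mul_mem _ (Subgroup.zpow_mem _ hdΩ _) hzΩ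
  · apply sup_le
    · apply sup_le
      · rw [Subgroup.zpowers_le]
        have h1 : orderOf ((x⁻¹ * y) * z) = 2 := by
          apply orderOf_eq_prime
          · rw [pow_two]
            have h3 : (x⁻¹ * y) * z * ((x⁻¹ * y) * z) =
                (x⁻¹ * y) * (z * (x⁻¹ * y) * z⁻¹) * (z * z) := by group
            rw [h3, z_conj_d h, zz h, mul_inv_cancel, mul_one]
          · intro h1
            apply z_notMem_A h
            have h2 : z = (x⁻¹ * y)⁻¹ := eq_inv_of_mul_eq_one_right h1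
            rw [h2]
            exact Subgroup.inv_mem _ (d_le_A h (Subgroup.mem_zpowers _))
        have h2 : x⁻¹ * y = ((x⁻¹ * y) * z) * z⁻¹ := by group
        rw [h2]
        exact Subgroup.mul_mem _ (Subgroup.subset_closure h1)
          (Subgroup.inv_mem _ (Subgroup.subset_closure h.2.2.2.2.2.1))
      · rw [Subgroup.zpowers_le]; exact Subgroup.subset_closure h.2.2.2.2.2.1
    · rw [Subgroup.zpowers_le]; exact Subgroup.subset_closure (order_u h)

theorem omega_sup [Finite S] (h : Data n x y z) : Om n x y z ⊔ Subgroup.zpowers x = ⊤ := by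
  rw [eq_top_iff]
  intro g _
  have hx : x ∈ Om n x y z ⊔ Subgroup.zpowers x :=
    Subgroup.mem_sup_right (Subgroup.mem_zpowers x)
  have hd : x⁻¹ * y ∈ Om n x y z ⊔ Subgroup.zpowers x :=
    Subgroup.mem_sup_left (Subgroup.mem_sup_left (Subgroup.mem_sup_left (Subgroup.mem_zpowers _)))
  have hz : z ∈ Om n x y z ⊔ Subgroup.zpowers x :=
    Subgroup.mem_sup_left (Subgroup.mem_sup_left (Subgroup.mem_sup_right (Subgroup.mem_zpowers _)))
  have hy : y ∈ Om n x y z ⊔ Subgroup.zpowers x := by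
    have h2 := Subgroup.mul_mem _ hx hd
    rwa [mul_inv_cancel_left] at h2
  rcases cases h g with ⟨i, j, rfl⟩ | ⟨i, j, rfl⟩
  · exact Subgroup.mul_mem _ (Subgroup.zpow_mem _ hx i) (Subgroup.zpow_mem _ hy j)
  · exact Subgroup.mul_mem _
      (Subgroup.mul_mem _ (Subgroup.zpow_mem _ hx i) (Subgroup.zpow_mem _ hy j)) hz

theorem normal_A [Finite S] (h : Data n x y z) : (A x y).Normal :=
  Subgroup.normal_of_index_eq_two (index_A h)

/-- classification of involutions up to conjugacy. -/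
theorem inv_class [Finite S] (h : Data n x y z) (t : S) (ht : orderOf t = 2) :
    IsConj (x ^ 2 ^ (n - 1) * y ^ 2 ^ (n - 1)) t ∨ IsConj (x ^ 2 ^ (n - 1)) t ∨ IsConj z t := by
  have ht2 : t * t = 1 := by
    have := pow_orderOf_eq_one t
    rw [ht, pow_two] at this; exact this
  have ht1 : t ≠ 1 := by
    intro h1; rw [h1, orderOf_one] at ht; omega
  have hpar : ∀ (w : S) (a : ℤ), w * w = 1 → w ^ a = 1 ∨ w ^ a = w := by
    intro w a hw
    rcases Int.even_or_odd' a with ⟨m, rfl | rfl⟩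
    · left; rw [zpow_mul, zpow_two, hw, one_zpow]
    · right; rw [zpow_add, zpow_mul, zpow_two, hw, one_zpow, one_mul, zpow_one]
  rcases cases h t with ⟨i, j, rfl⟩ | ⟨i, j, rfl⟩
  · obtain ⟨a, b, ha, hb⟩ := inv_A h i j ht2
    rw [ha, hb] at ht1 ⊢
    rcases hpar _ a (u_sq h) with h1 | h1 <;> rcases hpar _ b (v_sq h) with h2 | h2
    · rw [h1, h2, mul_one] at ht1; exact absurd rfl ht1
    · right; left
      rw [h1, h2, one_mul, v_conj h, isConj_iff]
      exact ⟨z, rfl⟩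
    · right; left
      rw [h1, h2, mul_one]
    · left
      rw [h1, h2]
  · right; right
    rw [inv_Az h i j ht2, ← conj_z h i, isConj_iff]
    exact ⟨x ^ i, rfl⟩

theorem not_conj_uv_u [Finite S] (h : Data n x y z) :
    ¬ IsConj (x ^ 2 ^ (n - 1) * y ^ 2 ^ (n - 1)) (x ^ 2 ^ (n - 1)) := by
  intro hc
  obtain ⟨c, hc⟩ := isConj_iff.1 hc
  have h1 := Subgroup.mem_center_iff.1 (uv_center h) c
  rw [h1, mul_inv_cancel_right] at hc
  exact v_ne_one h (by simpa using hc)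

theorem not_conj_uv_z [Finite S] (h : Data n x y z) :
    ¬ IsConj (x ^ 2 ^ (n - 1) * y ^ 2 ^ (n - 1)) z := by
  intro hc
  obtain ⟨c, hc⟩ := isConj_iff.1 hc
  have h1 := Subgroup.mem_center_iff.1 (uv_center h) c
  rw [h1, mul_inv_cancel_right] at hc
  apply z_notMem_A h
  rw [← hc]
  exact Subgroup.mul_mem _ (Subgroup.pow_mem _ x_mem_A _) (Subgroup.pow_mem _ y_mem_A _)

theorem not_conj_u_z [Finite S] (h : Data n x y z) : ¬ IsConj (x ^ 2 ^ (n - 1)) z := by
  intro hc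
  obtain ⟨c, hc⟩ := isConj_iff.1 hc
  apply z_notMem_A h
  rw [← hc]
  exact (normal_A h).conj_mem _ (Subgroup.pow_mem _ x_mem_A _) c

theorem A_mul (h : Data n x y z) (i j k l : ℤ) :
    (x ^ i * y ^ j) * (x ^ k * y ^ l) = x ^ (i + k) * y ^ (j + l) := by
  have hc : Commute (y ^ j) (x ^ k) := (comm h).symm.zpow_zpow j k
  calc (x ^ i * y ^ j) * (x ^ k * y ^ l) = x ^ i * (y ^ j * x ^ k) * y ^ l := by group
    _ = x ^ i * (x ^ k * y ^ j) * y ^ l := by rw [hc.eq]
    _ = x ^ (i + k) * y ^ (j + l) := by rw [zpow_add, zpow_add]; group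

theorem A_inv (h : Data n x y z) (i j : ℤ) : (x ^ i * y ^ j)⁻¹ = x ^ (-i) * y ^ (-j) := by
  rw [mul_inv_rev, zpow_neg, zpow_neg]
  exact ((comm h).symm.zpow_zpow j i).inv_inv.eq

theorem A_eq (h : Data n x y z) (i j k l : ℤ) (heq : x ^ i * y ^ j = x ^ k * y ^ l) :
    x ^ i = x ^ k ∧ y ^ j = y ^ l := by
  have h1 : x ^ (-k + i) = y ^ (l - j) := by
    rw [zpow_add, zpow_sub, zpow_neg, inv_mul_eq_iff_eq_mul, ← mul_assoc, ← heq,
      mul_inv_cancel_right]
  obtain ⟨h2, h3⟩ := disj h _ _ h1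
  rw [zpow_add, zpow_neg, inv_mul_eq_one] at h2
  rw [zpow_sub, mul_inv_eq_one] at h3
  exact ⟨h2.symm, h3.symm⟩

theorem d_pow_half (h : Data n x y z) :
    (x⁻¹ * y) ^ 2 ^ (n - 1) = x ^ 2 ^ (n - 1) * y ^ 2 ^ (n - 1) := by
  rw [(comm h).inv_left.mul_pow, inv_pow, inv_eq_of_mul_eq_one_left (u_sq h)]

theorem uv_sq (h : Data n x y z) :
    (x ^ 2 ^ (n - 1) * y ^ 2 ^ (n - 1)) * (x ^ 2 ^ (n - 1) * y ^ 2 ^ (n - 1)) = 1 := by
  have h2 := pow_orderOf_eq_one (x ^ 2 ^ (n - 1) * y ^ 2 ^ (n - 1))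
  rw [order_uv h, pow_two] at h2; exact h2

theorem zpow_parity (w : S) (a : ℤ) (hw : w * w = 1) : w ^ a = 1 ∨ w ^ a = w := by
  rcases Int.even_or_odd' a with ⟨m, rfl | rfl⟩
  · left; rw [zpow_mul, zpow_two, hw, one_zpow]
  · right; rw [zpow_add, zpow_mul, zpow_two, hw, one_zpow, one_mul, zpow_one]

/-- a "quaternion pair" `(a, b)` with `a` in the base and `b` outside. -/
theorem quat_pair [Finite S] (h : Data n x y z) (a b : S) (ha : a ∈ A x y) (hb : b ∉ A x y)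
    (hoa : orderOf a = 2 ^ n) (hba : b * a * b⁻¹ = a⁻¹) (hbb : b * b = a ^ 2 ^ (n - 1)) :
    x⁻¹ * y ∈ Subgroup.zpowers a ∧ ∃ m : ℤ, x ^ 2 ^ (n - 1) * z = (x⁻¹ * y) ^ m * b := by
  obtain ⟨i, j, rfl⟩ := (mem_A h a).1 ha
  rcases cases h b with ⟨k, l, rfl⟩ | ⟨k, l, rfl⟩
  · exact absurd ((mem_A h _).2 ⟨k, l, rfl⟩) hb
  have h1 : (x ^ k * y ^ l * z) * (x ^ i * y ^ j) * (x ^ k * y ^ l * z)⁻¹ = x ^ j * y ^ i := by
    have h2 : (x ^ k * y ^ l * z) * (x ^ i * y ^ j) * (x ^ k * y ^ l * z)⁻¹ =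
        (x ^ k * y ^ l) * (z * (x ^ i * y ^ j) * z⁻¹) * (x ^ k * y ^ l)⁻¹ := by group
    rw [h2, z_conj h]
    have h3 : (x ^ k * y ^ l) * (x ^ j * y ^ i) = (x ^ j * y ^ i) * (x ^ k * y ^ l) :=
      A_comm h _ _ ((mem_A h _).2 ⟨k, l, rfl⟩) ((mem_A h _).2 ⟨j, i, rfl⟩)
    rw [h3, mul_inv_cancel_right]
  rw [h1, A_inv h] at hba
  obtain ⟨h4, h5⟩ := A_eq h _ _ _ _ hba
  have h6 : y ^ j = y ^ (-i) := by
    rw [zpow_neg, h5, zpow_neg, inv_inv]
  have had : x ^ i * y ^ j = (x⁻¹ * y) ^ (-i) := by rw [d_zpow h, neg_neg, h6]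
  have hzp : Subgroup.zpowers (x ^ i * y ^ j) = Subgroup.zpowers (x⁻¹ * y) := by
    apply Subgroup.eq_of_le_of_card_ge
    · rw [Subgroup.zpowers_le, had]; exact Subgroup.zpow_mem_zpowers _ _
    · rw [Nat.card_zpowers, Nat.card_zpowers, hoa, order_d h]
  refine ⟨by rw [hzp]; exact Subgroup.mem_zpowers _, ?_⟩
  have hpow : (x ^ i * y ^ j) ^ 2 ^ (n - 1) = x ^ 2 ^ (n - 1) * y ^ 2 ^ (n - 1) := by
    have h7 : (x ^ i * y ^ j) ^ 2 ^ (n - 1) = (x ^ 2 ^ (n - 1) * y ^ 2 ^ (n - 1)) ^ (-i) := by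
      rw [had, ← d_pow_half h, ← zpow_natCast, ← zpow_natCast, ← zpow_mul, ← zpow_mul, mul_comm]
    rcases zpow_parity _ (-i) (uv_sq h) with h8 | h8
    · exfalso
      rw [h8] at h7
      have h9 := orderOf_dvd_of_pow_eq_one h7
      rw [hoa, two_pow h] at h9
      have h10 : 0 < 2 ^ (n - 1) := by positivity
      have := Nat.le_of_dvd h10 h9
      omega
    · rw [h7, h8]
  rw [hpow, sq_Az h] at hbb
  obtain ⟨M, hM⟩ : ∃ M : ℤ, M = ((2 ^ (n - 1) : ℕ) : ℤ) := ⟨_, rfl⟩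
  have hxM : x ^ 2 ^ (n - 1) = x ^ M := by rw [hM, zpow_natCast]
  have hyM : y ^ 2 ^ (n - 1) = y ^ M := by rw [hM, zpow_natCast]
  rw [hxM, hyM] at hbb
  obtain ⟨h11, h12⟩ := A_eq h _ _ _ _ hbb
  have h13 : y ^ l = y ^ (M - k) := by
    have e1 : l = (k + l) - k := by ring
    rw [e1, zpow_sub, h12, ← zpow_sub]
  refine ⟨k - M, ?_⟩
  rw [d_zpow h, h13, hxM]
  have h14 : x ^ (-(k - M)) * y ^ (k - M) * (x ^ k * y ^ (M - k)) = x ^ M := by
    rw [A_mul h]
    have e1 : -(k - M) + k = M := by ring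
    have e2 : k - M + (M - k) = 0 := by ring
    rw [e1, e2, zpow_zero, mul_one]
  rw [← h14]; group

end

theorem three_classes {S : Type*} [Group S] (P : S → Prop) (a b c : S) (ha : P a) (hb : P b)
    (hc : P c) (hab : ¬ IsConj a b) (hac : ¬ IsConj a c) (hbc : ¬ IsConj b c)
    (hall : ∀ t, P t → IsConj a t ∨ IsConj b t ∨ IsConj c t) :
    Nat.card {C : ConjClasses S // ∃ t : S, P t ∧ ConjClasses.mk t = C} = 3 := by
  show Nat.card (↥{C : ConjClasses S | ∃ t : S, P t ∧ ConjClasses.mk t = C}) = 3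
  rw [Nat.card_coe_set_eq, Set.ncard_eq_three]
  refine ⟨ConjClasses.mk a, ConjClasses.mk b, ConjClasses.mk c, ?_, ?_, ?_, ?_⟩
  · intro h; exact hab (ConjClasses.mk_eq_mk_iff_isConj.1 h)
  · intro h; exact hac (ConjClasses.mk_eq_mk_iff_isConj.1 h)
  · intro h; exact hbc (ConjClasses.mk_eq_mk_iff_isConj.1 h)
  · ext C
    simp only [Set.mem_ofPred_eq, Set.mem_insert_iff, Set.mem_singleton_iff]
    constructor
    · rintro ⟨t, ht, rfl⟩
      rcases hall t ht with h | h | h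
      · left; exact (ConjClasses.mk_eq_mk_iff_isConj.2 h).symm
      · right; left; exact (ConjClasses.mk_eq_mk_iff_isConj.2 h).symm
      · right; right; exact (ConjClasses.mk_eq_mk_iff_isConj.2 h).symm
    · rintro (rfl | rfl | rfl)
      · exact ⟨a, ha, rfl⟩
      · exact ⟨b, hb, rfl⟩
      · exact ⟨c, hc, rfl⟩

end Cfsg.Agent.Lib.Helper7.Wr
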